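import Cfsg.Agent.ALT6.Cen12b

/-! The central case for the alternating group of degree 12. -/

set_option autoImplicit false

namespace Cfsg.Agent.ALT6

open Module

theorem C12.range_fix {K V : Type} [Field K] [AddCommGroup V] [Module K V] (h3 : (3 : K) ≠ 0)
    {f : End K V} (hf : f ^ 3 = 1) {w : V} (h1 : w ∈ LinearMap.range (f - 1)) (h2 : f w = w) :
    w = 0 := by
  obtain ⟨v, rfl⟩ := h1
  have h4 : (f * f + f + 1) * (f - 1) = 0 := by linear_combination (norm := noncomm_ring) hf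
  have h5 := LinearMap.congr_fun h4 v
  rw [End.mul_apply] at h5
  generalize (f - 1) v = w at h2 h5
  refine (smul_eq_zero.1 ?_).resolve_left h3
  simp only [LinearMap.add_apply, End.mul_apply, h2, End.one_apply, LinearMap.zero_apply] at h5
  rw [← h5]
  module

open C12 H67 in
theorem cov12 {G : Type} [Group G] {π : G →* Equiv.Perm (Fin 12)} (hπ : H67.Cov π)
    {K V : Type} [Field K] [IsAlgClosed K] [AddCommGroup V] [Module K V] [FiniteDimensional K V]
    {ρ : G →* End K V} (h : E6R ρ) (h30 : (30 : K) ≠ 0) : False := by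
  have h3 : (3 : K) ≠ 0 := fun e => h30 (by linear_combination 10 * e)
  haveI : NeZero ((3 : ℕ) : K) := ⟨by simpa using h3⟩
  obtain ⟨ω, hω⟩ := HasEnoughRootsOfUnity.exists_primitiveRoot K 3
  choose x hx hx3 using fun i => hπ.exists_lift odd3 (X0_ok i).1
  have hs : St π x ω := ⟨hπ, hx, hx3, hω⟩
  have hf : ∀ i, ρ (x i) ^ 3 = 1 := fun i => by rw [← map_pow, hx3, map_one]
  have hc : ∀ i j, Commute (ρ (x i)) (ρ (x j) - 1) := fun i j =>
    ((hs.comm i j).map ρ).sub_right (Commute.one_right _)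
  have h1 : ∀ i j, i ≠ j → (ρ (x i) - 1) * (ρ (x j) - 1) = 0 := fun i j hij => by
    refine LinearMap.range_eq_bot.1 (by_contra fun hne => ?_)
    obtain ⟨u, v, ⟨w, hw1⟩, h0, hv⟩ := hs.exists_ws (ρ := ρ) hne fun k v ⟨w, hw⟩ =>
      ⟨ρ (x k) w, by rw [← hw, ← End.mul_apply, ← End.mul_apply, ((hc k i).mul_right (hc k j)).eq]⟩
    have h2 : u i ≠ 0 := fun e => h0 (range_fix h3 (hf i) ⟨_, hw1⟩ (by simpa [e] using mem_ws.1 hv i))
    have h4 : u j ≠ 0 := fun e => h0 (range_fix h3 (hf j) ⟨(ρ (x i) - 1) w, by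
      rw [← hw1, ← End.mul_apply, ((hc j i).sub_left (Commute.one_left _)).eq]⟩
      (by simpa [e] using mem_ws.1 hv j))
    have h5 := hs.hw_ne h3 h.dim hv h0
    have h6 := hs.hw_ne4 h30 h.dim hv h0
    clear hv hw1 hne
    revert u i j
    decide +kernel
  have h2 : ∀ i, finrank K (LinearMap.ker (ρ (x i) - 1)) ≤ 16 := fun i => by
    by_contra h4
    refine (X0_ok i).2.1 ?_
    rw [← hx, h.fix (x i) 3 (hx3 i) (by simpa using h3) (by
      rw [End.eigenspace_def, one_smul]; omega), map_one]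
  have h4 : ∀ i, 11 ≤ finrank K (LinearMap.range (ρ (x i) - 1)) := fun i => by
    have := LinearMap.finrank_range_add_finrank_ker (ρ (x i) - 1)
    have := h2 i
    have := h.dim
    omega
  have h5 := Submodule.finrank_sup_add_finrank_inf_eq (LinearMap.range (ρ (x 1) - 1))
    (LinearMap.range (ρ (x 2) - 1))
  rw [show LinearMap.range (ρ (x 1) - 1) ⊓ LinearMap.range (ρ (x 2) - 1) = ⊥ from
    eq_bot_iff.2 fun v hv => range_fix h3 (hf 1) hv.1 (sub_eq_zero.1
      (LinearMap.range_le_ker_iff.2 (h1 1 2 (by decide)) hv.2)), finrank_bot] at h5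
  have h6 := Submodule.finrank_mono (sup_le (LinearMap.range_le_ker_iff.2 (h1 0 1 (by decide)))
    (LinearMap.range_le_ker_iff.2 (h1 0 2 (by decide))))
  have := h2 0
  have := h4 1
  have := h4 2
  omega

end Cfsg.Agent.ALT6
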