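import Cfsg.Agent.ALT6.Defs

/-! Weights of the subgroup `3 ^ 4` of a cover of the alternating group of degree 12. -/

set_option autoImplicit false

namespace Cfsg.Agent.ALT6.C12

open Equiv Equiv.Perm H3 H67 Module

/-- exponent vectors -/
abbrev U4 := Fin 4 → Fin 3

/-- four disjoint 3-cycles -/
def X0 : Fin 4 → Perm (Fin 12) := ![c[0, 1, 2], c[3, 4, 5], c[6, 7, 8], c[9, 10, 11]]

/-- signed transpositions of the four 3-cycles -/
def kp : Fin 3 → Perm (Fin 12) :=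
  ![c[0, 3, 1, 4] * c[2, 5], c[3, 6, 4, 7] * c[5, 8], c[6, 9, 7, 10] * c[8, 11]]

/-- the transposition -/
def pj (j : Fin 3) (i : Fin 4) : Fin 4 :=
  if i = j.castSucc then j.succ else if i = j.succ then j.castSucc else i

/-- the sign -/
def ej (j : Fin 3) (i : Fin 4) : Fin 3 := if i = j.succ then 2 else 1

/-- the action on exponent vectors -/
def tj (j : Fin 3) (u : U4) : U4 := fun i => u (pj j i) * ej j i

/-- Hamming weight -/
def hw (u : U4) : ℕ := (Finset.univ.filter fun i => u i ≠ 0).card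

/-- orbit representatives -/
def cn (k : ℕ) : U4 := fun i => if i.1 < k then 1 else 0

/-- words -/
def wds : List (List (Fin 3)) :=
  [[], [0], [0, 0], [0, 0, 0], [2, 1, 0], [1, 0, 0, 0], [1, 0, 2, 1, 1], [2, 1, 0, 0, 0], [0, 2, 1],
    [0, 1, 1, 1], [2, 1, 0, 0], [0, 2, 1, 1, 1], [1, 0, 2, 2, 2], [0, 1, 0, 2, 1, 1],
    [0, 1, 0, 2, 2, 2], [1, 0, 2, 1, 0, 0], [2, 1], [1, 0, 0], [1, 0, 2, 1], [0, 1, 0, 0, 2],
    [1, 0, 2, 1, 0], [0, 1, 0, 0, 2, 1], [0, 1, 2, 1, 0, 0], [0, 2], [2, 2], [0, 1, 2], [1, 0, 2],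
    [2, 2, 2], [0, 1, 2, 1], [1, 0, 0, 2], [0, 1, 2, 1, 1], [1, 2, 1, 0, 0], [1, 0, 2, 1, 1, 1]]

theorem reach : ∀ u : U4, ∃ w ∈ wds, w.foldl (fun v j => tj j v) u = cn (hw u) := by
  decide +kernel

theorem tj4 : ∀ j u, tj j (tj j (tj j (tj j u))) = u := by decide +kernel

theorem kp_ok : ∀ j, sign (kp j) = 1 ∧ ∀ i, kp j * X0 i * (kp j)⁻¹ = X0 (pj j i) ^ (ej j i).1 := by
  decide +kernel

theorem X0_ok : ∀ i, X0 i ^ 3 = 1 ∧ X0 i ≠ 1 ∧ ∀ j, X0 i * X0 j = X0 j * X0 i := by decide +kernel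

variable {G : Type} [Group G] {π : G →* Perm (Fin 12)} {K V : Type} [Field K] [AddCommGroup V]
  [Module K V] {ρ : G →* End K V} {x : Fin 4 → G} {ω : K}

/-- the lifts of the four 3-cycles -/
structure St (π : G →* Perm (Fin 12)) (x : Fin 4 → G) (ω : K) : Prop where
  cov : Cov π
  hx : ∀ i, π (x i) = X0 i
  h3 : ∀ i, x i ^ 3 = 1
  pr : IsPrimitiveRoot ω 3

/-- the weight spaces -/
def ws (ρ : G →* End K V) (x : Fin 4 → G) (ω : K) (u : U4) : Submodule K V :=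
  wsp (fun i => ρ (x i)) fun i => ω ^ (u i).1

theorem mem_ws {u : U4} {v : V} : v ∈ ws ρ x ω u ↔ ∀ i, ρ (x i) v = ω ^ (u i).1 • v := mem_wsp

theorem St.comm (h : St π x ω) (i j : Fin 4) : Commute (x i) (x j) :=
  h.cov.comm odd3 (h.h3 j) (by rw [h.hx, h.hx]; exact (X0_ok i).2.2 j)

theorem St.conj (h : St π x ω) {g : G} {i j : Fin 4} {e : ℕ}
    (h1 : π g * X0 i * (π g)⁻¹ = X0 j ^ e) : g * x i * g⁻¹ = x j ^ e :=
  h.cov.uniq odd3 (by rw [conj_pow, h.h3]; simp) (by rw [pow_right_comm, h.h3, one_pow])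
    (by simpa [h.hx] using h1)

theorem St.inj (h : St π x ω) : Function.Injective fun (u : U4) i => ω ^ (u i).1 :=
  fun u u' e => funext fun i => Fin.ext (h.pr.pow_inj (u i).2 (u' i).2 (congrFun e i))

theorem pow_eig {f : End K V} {c : K} {v : V} (h : f v = c • v) (n : ℕ) : (f ^ n) v = c ^ n • v := by
  induction n with
  | zero => simp
  | succ n ih => rw [pow_succ, End.mul_apply, h, map_smul, ih, smul_smul, pow_succ']

variable [FiniteDimensional K V]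

theorem St.mm_le (h : St π x ω) (j : Fin 3) (u : U4) :
    finrank K (ws ρ x ω u) ≤ finrank K (ws ρ x ω (tj j u)) := by
  obtain ⟨g, hg⟩ := h.cov.surj _ (kp_ok j).1
  rw [(Submodule.equivMapOfInjective _ (rho_inj ρ g⁻¹) _).finrank_eq]
  refine Submodule.finrank_mono (Submodule.map_le_iff_le_comap.2 fun v hv => mem_ws.2 fun i => ?_)
  rw [rho_conj (h.conj (hg ▸ (kp_ok j).2 i)), map_pow, pow_eig (mem_ws.1 hv _), map_smul, ← pow_mul,
    tj, Fin.val_mul, ← pow_eq_pow_mod _ h.pr.pow_eq_one]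

theorem St.mm_eq (h : St π x ω) (u : U4) :
    finrank K (ws ρ x ω u) = finrank K (ws ρ x ω (cn (hw u))) := by
  have h1 : ∀ j u, finrank K (ws ρ x ω (tj j u)) = finrank K (ws ρ x ω u) := fun j u =>
    le_antisymm (by
      conv_rhs => rw [← tj4 j u]
      exact ((h.mm_le j _).trans (h.mm_le j _)).trans (h.mm_le j _)) (h.mm_le j u)
  obtain ⟨w, -, hw⟩ := reach u
  rw [← hw]
  clear hw
  induction w generalizing u with
  | nil => rfl
  | cons j w ih => rw [List.foldl_cons, ← ih, h1]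

theorem St.mul_le (h : St π x ω) (k : ℕ) :
    (Finset.univ.filter fun u => hw u = k).card * finrank K (ws ρ x ω (cn k)) ≤ finrank K V := by
  refine le_trans ?_ (sum_finrank_wsp_le (fun i => ρ (x i)) h.inj)
  refine le_trans ?_ (Finset.sum_le_sum_of_subset (Finset.filter_subset (fun u => hw u = k) _))
  refine Finset.card_nsmul_le_sum _ _ _ fun u hu => ?_
  rw [← (Finset.mem_filter.1 hu).2, ← h.mm_eq]
  rfl

theorem St.exists_of (h : St π x ω) {u u' : U4} (e : hw u = hw u') {v : V} (hv : v ∈ ws ρ x ω u)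
    (h0 : v ≠ 0) : ∃ v' ∈ ws ρ x ω u', v' ≠ 0 := by
  have h1 := Submodule.one_le_finrank_iff.2 ((Submodule.ne_bot_iff _).2 ⟨v, hv, h0⟩)
  rw [h.mm_eq, e, ← h.mm_eq] at h1
  exact (Submodule.ne_bot_iff _).1 (Submodule.one_le_finrank_iff.1 h1)

variable [IsAlgClosed K]

theorem St.exists_ws (h : St π x ω) {U : Submodule K V} (hU : U ≠ ⊥)
    (hi : ∀ i, ∀ v ∈ U, ρ (x i) v ∈ U) : ∃ u, ∃ v ∈ U, v ≠ 0 ∧ v ∈ ws ρ x ω u := by
  have := Submodule.nontrivial_iff_ne_bot.2 hU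
  obtain ⟨v, h0, χ, hχ⟩ := exists_common_eigvec (f := fun i => (ρ (x i)).restrict (hi i))
    fun i j => LinearMap.ext fun w => Subtype.ext
      (LinearMap.congr_fun ((h.comm i j).map ρ).eq w.1)
  have h0' : (v : V) ≠ 0 := fun e => h0 (Subtype.ext e)
  have h1 : ∀ i, ρ (x i) v = χ i • (v : V) := fun i => congrArg Subtype.val (hχ i)
  have h2 : ∀ i, ∃ k : Fin 3, ω ^ k.1 = χ i := fun i => by
    have h3 := pow_eig (h1 i) 3
    rw [← map_pow, h.h3, map_one, End.one_apply] at h3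
    obtain ⟨k, hk, e⟩ := h.pr.eq_pow_of_pow_eq_one (ξ := χ i)
      (smul_left_injective K h0' (by simpa using h3.symm))
    exact ⟨⟨k, hk⟩, e⟩
  choose u hu using h2
  exact ⟨u, v, v.2, h0', mem_ws.2 fun i => hu i ▸ h1 i⟩

theorem St.eight (h : St π x ω) (h3 : (3 : K) ≠ 0) {c d : K} (hd : d ≠ 1) {v : V} (h0 : v ≠ 0)
    (h1 : ρ (x 0) v = c • v) (h2 : ρ (x 1) v = d • v) : 8 ≤ finrank K ((ρ (x 0)).eigenspace c) := by
  let S : Finset (Fin 12) := {0, 1, 2}ᶜ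
  have h4 : X0 0 ∈ Alt Sᶜ ∧ X0 1 ∈ Alt S ∧ S.card = 9 := by
    simp only [mem_Alt]; decide +kernel
  have h9 : ∀ g, π g ∈ Alt S → Commute g (x 0) := fun g hg =>
    h.cov.comm odd3 (h.h3 0) (commute_of_Alt hg (h.hx 0 ▸ h4.1))
  obtain ⟨π', h10, -⟩ := h.cov.restrict S
  let ρ' := Representation.subrepresentation (ρ.comp ((Alt S).comap π).subtype)
    ((ρ (x 0)).eigenspace c) fun g => End.mapsTo_genEigenspace_of_comm ((h9 g g.2).symm.map ρ) c 1
  have h5 := Cov.bound 9 (by rw [Fintype.card_coe, h4.2.2]) le_rfl h10 _ (ρ := ρ') rfl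
    fun g hg => by_contra fun h12 => by
      have h6 : x 1 ∈ (Alt S).comap π := Subgroup.mem_comap.2 (h.hx 1 ▸ h4.2.1)
      have : ρ' ⟨x 1, h6⟩ = 1 := h10.mem_of_normal (N := MonoidHom.ker ρ')
        (by rw [Fintype.card_coe, h4.2.2]; omega) hg h12 odd3 (Subtype.ext (h.h3 1))
      have h7 : ρ (x 1) v = v := congrArg (fun f => (f ⟨v, End.mem_eigenspace_iff.2 h1⟩).1) this
      exact hd (smul_left_injective K h0 (by simpa using h2.symm.trans h7))
  by_contra h6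
  refine h3 (mul_self_eq_zero.1 ?_)
  have := h5.2 (by omega)
  norm_num at this ⊢
  exact this

theorem St.hw_ne (h : St π x ω) (h3 : (3 : K) ≠ 0) (h27 : finrank K V = 27) {u : U4} {v : V}
    (hv : v ∈ ws ρ x ω u) (h0 : v ≠ 0) : hw u ≠ 2 ∧ hw u ≠ 3 := by
  refine ⟨fun e => ?_, fun e => ?_⟩
  · have hω : ω ≠ 1 := h.pr.ne_one (by norm_num)
    have h1 : ∀ k : Fin 3, k ≠ 0 → 8 ≤ finrank K ((ρ (x 0)).eigenspace (ω ^ k.1)) := fun k hk => by
      obtain ⟨w, h1, h2⟩ := h.exists_of (u' := ![k, 1, 0, 0])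
        (e.trans (by revert k; decide)) hv h0
      exact h.eight h3 hω h2 (mem_ws.1 h1 0) (by simpa using mem_ws.1 h1 1)
    have hi : ∀ i, ∀ w ∈ (ρ (x 0)).eigenspace 1, ρ (x i) w ∈ (ρ (x 0)).eigenspace 1 := fun i =>
      End.mapsTo_genEigenspace_of_comm ((h.comm 0 i).map ρ) 1 1
    have h2 := card_le_of_wsp (ι := {u : U4 // hw u = 2 ∧ u 0 = 0})
      (fun i => (ρ (x i)).restrict (hi i)) (h.inj.comp Subtype.val_injective) fun u' => by
        obtain ⟨w, h1, h2⟩ := h.exists_of (e.trans u'.2.1.symm) hv h0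
        exact ⟨⟨w, End.mem_eigenspace_iff.2 (by simpa [u'.2.2] using mem_ws.1 h1 0)⟩,
          fun e => h2 (congrArg Subtype.val e), fun i => Subtype.ext (mem_ws.1 h1 i)⟩
    rw [Nat.card_eq_fintype_card, show Fintype.card {u : U4 // hw u = 2 ∧ u 0 = 0} = 12 by
      decide +kernel] at h2
    have h4 := sum_finrank_wsp_le (fun _ : Unit => ρ (x 0)) (χ := fun (k : Fin 3) _ => ω ^ k.1)
      fun k k' e => Fin.ext (h.pr.pow_inj k.2 k'.2 (congrFun e ()))
    have h7 : ∀ c : K, wsp (fun _ : Unit => ρ (x 0)) (fun _ => c) = (ρ (x 0)).eigenspace c :=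
      fun c => Submodule.ext fun w => by simp [mem_wsp]
    rw [Fin.sum_univ_three, h7, h7, h7, h27] at h4
    have h5 := h1 1 (by decide)
    have h6 := h1 2 (by decide)
    rw [show ((0 : Fin 3) : ℕ) = 0 from rfl, pow_zero] at h4
    omega
  · have h1 := h.mul_le (ρ := ρ) 3
    have h2 := Submodule.one_le_finrank_iff.2 ((Submodule.ne_bot_iff _).2 ⟨v, hv, h0⟩)
    rw [h.mm_eq, e] at h2
    rw [show (Finset.univ.filter fun u => hw u = 3).card = 32 by decide +kernel] at h1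
    omega

end Cfsg.Agent.ALT6.C12
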