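import Cfsg.Agent.ALT6.Cen12a

/-! Weights of full support do not occur. -/

set_option autoImplicit false

namespace Cfsg.Agent.ALT6.C12

open Equiv Equiv.Perm H3 H67 Module

theorem ring2 {R : Type*} [Ring R] {A B : R} (hA : A * A + A + 1 = 0) (hB : B * B + B + 1 = 0)
    (h : A * B * (A * B) = 1) : 2 • 1 + 2 • A + 2 • B = 0 := by
  linear_combination (norm := noncomm_ring) (-((1 + B) * (1 + A))) * h - hB * (A * B) +
    (1 + B) * hA * (B * A * B) - (1 + A) * h * (1 + B) - B * A * hB + hA * (B * A * (B * B + B))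

theorem ring12 {R : Type*} [Ring R] {A B C : R} (hA : A * A + A + 1 = 0) (hB : B * B + B + 1 = 0)
    (hC : C * C + C + 1 = 0) (h1 : A * B * (A * B) = 1) (h2 : A * C * (A * C) = 1)
    (h3 : B * C * (B * C) = 1) : 12 • (1 : R) = 0 := by
  have h4 : 2 • 1 + 4 • A = 0 := by
    linear_combination (norm := noncomm_ring) ring2 hA hB h1 + ring2 hA hC h2 - ring2 hB hC h3
  linear_combination (norm := noncomm_ring) 16 • hA - h4 * (2 • 1 + 4 • A)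

variable {G : Type} [Group G] {π : G →* Perm (Fin 12)} {K V : Type} [Field K] [AddCommGroup V]
  [Module K V] {ρ : G →* End K V} {x : Fin 4 → G} {ω : K}

theorem sq_conj (h : Cov π) {g g' k : G} (h1 : π k * π g * (π k)⁻¹ = π g') (h2 : π g ^ 2 = 1) :
    g' ^ 2 = g ^ 2 := by
  obtain ⟨w, hw, h3, rfl⟩ := h.exists_eq (x := g') (y := k * g * k⁻¹) (by simp [h1])
  rw [Commute.mul_pow (hw.comm _), h.sq w h3, one_mul, conj_pow,
    Subgroup.mem_center_iff.1 (h.cent (g ^ 2) (by rw [map_pow, h2])) k, mul_inv_cancel_right]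

theorem sq_dt (h : Cov π) {g g' : G} (h1 : (π g).cycleType = {2, 2})
    (h2 : (π g').cycleType = {2, 2}) : g' ^ 2 = g ^ 2 := by
  obtain ⟨σ, h3⟩ := isConj_iff.1 (alternatingGroup.isConj_of (σ := ⟨π g, h.even g⟩)
    (τ := ⟨π g', h.even g'⟩) (isConj_iff_cycleType_eq.2 (h1.trans h2.symm))
    (by rw [← sum_cycleType, h1]; decide))
  obtain ⟨k, hk⟩ := h.surj σ σ.2
  refine sq_conj h (k := k) (by simpa [hk] using congrArg Subtype.val h3) ?_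
  rw [← orderOf_dvd_iff_pow_eq_one, ← lcm_cycleType, h1]
  decide

theorem comm_dt (h : Cov π) {g y : G} (hd : Perm.Disjoint (π g) (π y))
    (hs : (π y).cycleType = {2, 2}) : Commute g y :=
  h.comm3 (S := (π y).supportᶜ) (by rw [Finset.card_compl, ← sum_cycleType, hs]; decide)
    (by rw [compl_compl]; exact mem_Alt_support (h.even y)) (mem_Alt_compl (h.even g) hd)

/-- three double transpositions, and an element of order 3 permuting the last three blocks -/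
def D0 : Fin 4 → Perm (Fin 12) :=
  ![swap 0 3 * swap 1 4, swap 2 5 * swap 6 9, swap 7 10 * swap 8 11,
    c[3, 6, 9] * c[4, 7, 10] * c[5, 8, 11]]

theorem D0_ok : (∀ i, sign (D0 i) = 1) ∧ (∀ i, i ≠ 3 → (D0 i).cycleType = {2, 2}) ∧
    Perm.Disjoint (D0 0) (D0 1) ∧ Perm.Disjoint (D0 0 * D0 1) (D0 2) ∧
    (D0 0 * D0 1 * D0 2) ^ 2 = 1 ∧
    (D0 3 * D0 3) * (D0 0 * D0 1 * D0 2) * (D0 3 * D0 3)⁻¹ =
      D0 0 * D0 1 * D0 2 * (D0 3 * (D0 0 * D0 1 * D0 2) * (D0 3)⁻¹) ∧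
    (∀ i, ∃ j, (D0 0 * D0 1 * D0 2)⁻¹ * X0 i * (D0 0 * D0 1 * D0 2)⁻¹⁻¹ = X0 j ^ 1) ∧
    ∀ i, ∃ j, (D0 3 * (D0 0 * D0 1 * D0 2) * (D0 3)⁻¹)⁻¹ * X0 i *
      (D0 3 * (D0 0 * D0 1 * D0 2) * (D0 3)⁻¹)⁻¹⁻¹ = X0 j ^ 1 := by
  unfold Perm.Disjoint
  refine ⟨?_, ?_, ?_, ?_, ?_, ?_, ?_, ?_⟩ <;> decide +kernel

theorem St.pres (h : St π x ω) {g : G} (hg : ∀ i, ∃ j, (π g)⁻¹ * X0 i * (π g)⁻¹⁻¹ = X0 j ^ 1) {v : V}
    (hv : v ∈ ws ρ x ω (cn 4)) : ρ g v ∈ ws ρ x ω (cn 4) := mem_ws.2 fun i => by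
  obtain ⟨j, hj⟩ := hg i
  have h1 := rho_conj (ρ := ρ) (h.conj (g := g⁻¹) (by rw [map_inv]; exact hj)) v
  rw [inv_inv, pow_one, mem_ws.1 hv, map_smul] at h1
  rw [h1, show cn 4 j = cn 4 i by simp [cn]]

theorem St.wt_eq (h : St π x ω) {u : U4} {v : V} (hv : v ∈ ws ρ x ω u) (h0 : v ≠ 0) {i : Fin 4}
    {k : Fin 3} (h1 : ρ (x i) v = ω ^ k.1 • v) : u i = k :=
  Fin.ext (h.pr.pow_inj (u i).2 k.2 (smul_left_injective K h0 ((mem_ws.1 hv i).symm.trans h1)))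

theorem St.z_one (h : St π x ω) (h1 : finrank K (ws ρ x ω (cn 4)) = 1) {v : V}
    (hv : v ∈ ws ρ x ω (cn 4)) (h0 : v ≠ 0) {g : G} (hg : (π g).cycleType = {2, 2}) :
    ρ (g ^ 2) v = v := by
  obtain ⟨e1, e2, e3, e4, e5, e6, e7, e8⟩ := D0_ok
  choose d hd using fun i => h.cov.surj _ (e1 i)
  have h2 : ∀ i, i ≠ 3 → d i ^ 2 = g ^ 2 := fun i hi => sq_dt h.cov hg (hd i ▸ e2 i hi)
  have h3 : (d 0 * d 1 * d 2) ^ 2 = g ^ 2 := by
    rw [(comm_dt h.cov (by rw [map_mul, hd, hd, hd]; exact e4) (hd 2 ▸ e2 2 (by decide))).mul_pow,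
      (comm_dt h.cov (by rw [hd, hd]; exact e3) (hd 1 ▸ e2 1 (by decide))).mul_pow,
      h2 0 (by decide), h2 1 (by decide), h2 2 (by decide), ← sq, h.cov.sq, one_mul]
    rw [map_pow, ← orderOf_dvd_iff_pow_eq_one, ← lcm_cycleType, hg]
    decide
  have h4 : π (d 0 * d 1 * d 2) = D0 0 * D0 1 * D0 2 := by rw [map_mul, map_mul, hd, hd, hd]
  generalize d 0 * d 1 * d 2 = s at h3 h4
  have h5 : π (d 3 * s * (d 3)⁻¹) = D0 3 * (D0 0 * D0 1 * D0 2) * (D0 3)⁻¹ := by simp [h4, hd]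
  generalize d 3 * s * (d 3)⁻¹ = t at h5
  have h6 : t ^ 2 = g ^ 2 := (sq_conj h.cov (k := d 3) (by rw [h4, h5, hd]) (h4 ▸ e5)).trans h3
  have h7 : (s * t) ^ 2 = g ^ 2 := (sq_conj h.cov (k := d 3 * d 3)
    (by rw [map_mul, map_mul, h4, h5, hd, e6]) (h4 ▸ e5)).trans h3
  have h8 := (finrank_eq_one_iff_of_nonzero' (⟨v, hv⟩ : ws ρ x ω (cn 4))
    fun e => h0 (congrArg Subtype.val e)).1 h1
  obtain ⟨a, ha⟩ := h8 ⟨_, h.pres (h4 ▸ e7) hv⟩
  obtain ⟨b, hb⟩ := h8 ⟨_, h.pres (h5 ▸ e8) hv⟩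
  have ha' : ρ s v = a • v := (congrArg Subtype.val ha).symm
  have hb' : ρ t v = b • v := (congrArg Subtype.val hb).symm
  have hc : ρ (s * t) v = (b * a) • v := by rw [map_mul, End.mul_apply, hb', map_smul, ha', smul_smul]
  have h9 := pow_eig ha' 2
  have h10 := pow_eig hb' 2
  have h11 := pow_eig hc 2
  rw [← map_pow, h3] at h9
  rw [← map_pow, h6] at h10
  rw [← map_pow, h7] at h11
  refine rho_inj ρ (g ^ 2) ?_
  conv_lhs => rw [h10, map_smul, h9, smul_smul, ← mul_pow, ← h11]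

variable [FiniteDimensional K V] [IsAlgClosed K]

theorem St.hw_ne4 (h : St π x ω) (h30 : (30 : K) ≠ 0) (h27 : finrank K V = 27) {u : U4} {v : V}
    (hv : v ∈ ws ρ x ω u) (h0 : v ≠ 0) : hw u ≠ 4 := fun e => by
  have h3 : (3 : K) ≠ 0 := fun e => h30 (by linear_combination 10 * e)
  have h2 : (2 : K) ≠ 0 := fun e => h30 (by linear_combination 15 * e)
  obtain ⟨w, hw1, hw0⟩ := h.exists_of (u' := cn 4) (e.trans (by decide)) hv h0
  have h1 : finrank K (ws ρ x ω (cn 4)) = 1 := by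
    have h1 := h.mul_le (ρ := ρ) 4
    have h2 := Submodule.one_le_finrank_iff.2 ((Submodule.ne_bot_iff _).2 ⟨w, hw1, hw0⟩)
    rw [show (Finset.univ.filter fun u => hw u = 4).card = 16 by decide +kernel] at h1
    omega
  let S : Finset (Fin 12) := {0, 1, 2, 3, 4, 5}ᶜ
  let p : Perm (Fin 12) := swap 8 9 * swap 10 11
  let q : Perm (Fin 12) := swap 8 10 * swap 9 11
  have h4 : X0 0 ∈ Alt Sᶜ ∧ X0 1 ∈ Alt Sᶜ ∧ X0 2 ∈ Alt S ∧ p ∈ Alt S ∧ q ∈ Alt S ∧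
      (X0 2 * (p * X0 2 * p⁻¹)).cycleType = {2, 2} ∧ (X0 2 * (q * X0 2 * q⁻¹)).cycleType = {2, 2} ∧
      (p * X0 2 * p⁻¹ * (q * X0 2 * q⁻¹)).cycleType = {2, 2} ∧ p.cycleType = {2, 2} ∧ p ^ 2 = 1 := by
    simp only [mem_Alt]; decide +kernel
  obtain ⟨e0, e1, e2, e3, e4, e5, e6, e7, e8, e9⟩ := h4
  obtain ⟨p', hp⟩ := h.cov.surj p e3.2
  obtain ⟨q', hq⟩ := h.cov.surj q e4.2
  have hz := h.cov.cent (p' ^ 2) (by rw [map_pow, hp, e9])
  let X : Submodule K V :=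
    (ρ (x 0)).eigenspace ω ⊓ (ρ (x 1)).eigenspace ω ⊓ (ρ (p' ^ 2)).eigenspace 1
  have hi : ∀ {g y : G} (c : K), Commute g y → ∀ v ∈ (ρ y).eigenspace c, ρ g v ∈ (ρ y).eigenspace c :=
    fun c hc => End.mapsTo_genEigenspace_of_comm (hc.symm.map ρ) c 1
  let ρ' := Representation.subrepresentation (ρ.comp ((Alt S).comap π).subtype) X fun g v hv =>
    ⟨⟨hi ω (h.cov.comm odd3 (h.h3 0) (commute_of_Alt g.2 (h.hx 0 ▸ e0))) v hv.1.1,
      hi ω (h.cov.comm odd3 (h.h3 1) (commute_of_Alt g.2 (h.hx 1 ▸ e1))) v hv.1.2⟩,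
      hi 1 (Subgroup.mem_center_iff.1 hz g) v hv.2⟩
  let a : (Alt S).comap π := ⟨x 2, Subgroup.mem_comap.2 (h.hx 2 ▸ e2)⟩
  let b : (Alt S).comap π := ⟨p', Subgroup.mem_comap.2 (hp ▸ e3)⟩
  let c : (Alt S).comap π := ⟨q', Subgroup.mem_comap.2 (hq ▸ e4)⟩
  have hA : ρ' a * ρ' a + ρ' a + 1 = 0 := LinearMap.ext fun v => by_contra fun hne => by
    have h5 : ρ' a * (ρ' a * ρ' a + ρ' a + 1) = ρ' a * ρ' a + ρ' a + 1 := by
      have : ρ' a ^ 3 = 1 := by rw [← map_pow, show a ^ 3 = 1 from Subtype.ext (h.h3 2), map_one]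
      linear_combination (norm := noncomm_ring) this
    have h6 := congrArg (fun f => (f v).1) h5
    simp only [End.mul_apply (ρ' a) (_ + _ + 1)] at h6
    generalize (ρ' a * ρ' a + ρ' a + 1) v = y at hne h6
    obtain ⟨u, v', h7, h8, h9⟩ := h.exists_ws (ρ := ρ) (U := (ρ (x 0)).eigenspace ω ⊓
      (ρ (x 1)).eigenspace ω ⊓ (ρ (x 2)).eigenspace 1) ((Submodule.ne_bot_iff _).2
        ⟨y, ⟨y.2.1, End.mem_eigenspace_iff.2 (h6.trans (one_smul _ _).symm)⟩,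
          fun e => hne (Subtype.ext e)⟩)
      fun i v hv => ⟨⟨hi ω (h.comm i 0) v hv.1.1, hi ω (h.comm i 1) v hv.1.2⟩,
        hi 1 (h.comm i 2) v hv.2⟩
    have h10 := h.wt_eq h9 h8 (k := 1) (by simpa using End.mem_eigenspace_iff.1 h7.1.1)
    have h11 := h.wt_eq h9 h8 (k := 1) (by simpa using End.mem_eigenspace_iff.1 h7.1.2)
    have h12 := h.wt_eq h9 h8 (k := 0) (by simpa using End.mem_eigenspace_iff.1 h7.2)
    have h13 := h.hw_ne h3 h27 h9 h8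
    revert h10 h11 h12 h13
    clear h9
    revert u
    decide +kernel
  have hB : ∀ g, ρ' (g * a * g⁻¹) * ρ' (g * a * g⁻¹) + ρ' (g * a * g⁻¹) + 1 = 0 := fun g => by
    have h5 : ρ' g⁻¹ * ρ' g = 1 := by rw [← map_mul, inv_mul_cancel, map_one]
    have h6 : ρ' g * ρ' g⁻¹ = 1 := by rw [← map_mul, mul_inv_cancel, map_one]
    rw [map_mul, map_mul]
    linear_combination (norm := noncomm_ring) ρ' g * hA * ρ' g⁻¹ + ρ' g * ρ' a * h5 * (ρ' a * ρ' g⁻¹) - h6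
  have hC : ∀ g g', (π (g * g' : (Alt S).comap π)).cycleType = {2, 2} →
      ρ' g * ρ' g' * (ρ' g * ρ' g') = 1 := fun g g' hg => by
    rw [← map_mul, ← map_mul]
    refine LinearMap.ext fun v => Subtype.ext ?_
    change ρ ((g * g' : G) * (g * g')) v = v
    rw [← sq, sq_dt h.cov (g' := g * g') (hp ▸ e8) hg]
    simpa using End.mem_eigenspace_iff.1 v.2.2
  have h5 := ring12 hA (hB b) (hB c) (hC _ _ (by simpa [a, b, h.hx, hp] using e5))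
    (hC _ _ (by simpa [a, c, h.hx, hq] using e6)) (hC _ _ (by simpa [a, b, c, h.hx, hp, hq] using e7))
  have h6 : w ∈ X := ⟨⟨End.mem_eigenspace_iff.2 (by simpa [cn] using mem_ws.1 hw1 0),
    End.mem_eigenspace_iff.2 (by simpa [cn] using mem_ws.1 hw1 1)⟩,
    End.mem_eigenspace_iff.2 (by rw [h.z_one h1 hw1 hw0 (hp ▸ e8), one_smul])⟩
  have h7 : (12 : K) • w = 0 := by
    have := congrArg (fun f => (f ⟨w, h6⟩).1) h5
    rw [show (12 : K) = (12 : ℕ) by norm_num, Nat.cast_smul_eq_nsmul]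
    exact this
  exact hw0 ((smul_eq_zero.1 h7).resolve_left
    (by rw [show (12 : K) = 2 * 2 * 3 by norm_num]; simp [h2, h3]))

end Cfsg.Agent.ALT6.C12
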