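import Cfsg.Agent.ALT6.Defs

/-! Two finite searches on the 27 weights of `E₆` (see notes/ALT6.md). -/

set_option autoImplicit false

namespace Cfsg.Agent.ALT6

namespace Cb

def fv (v : ℕ) : ℕ := Nat.mod (Nat.shiftRight 36269542869311443138 (Nat.mul 6 (Nat.mod v 11))) 64

def TT : ℕ := 1287184326437946477340800

def frc (n : ℕ) (k : ℕ → Bool) : Bool := Nat.rec (k 0) (fun m _ => k (Nat.succ m)) n

def stp (s : ℕ) (k : ℕ → Bool) : Bool :=
  frc s fun s => Bool.rec true (k s) (Nat.beq (Nat.mod 1287184326437946477340800 s) 0)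

def a11 (p : ℕ → Bool) : Bool :=
  p 0 && (p 1 && (p 2 && (p 3 && (p 4 && (p 5 && (p 6 && (p 7 && (p 8 && (p 9 && p 10)))))))))

def A1 (a b c d : ℕ) : ℕ :=
  (Nat.mul (Nat.mul (Nat.mul (Nat.mul (Nat.mul (Nat.mul (Nat.mul (Nat.mul
    (fv (Nat.mul 10 a))
    (fv (Nat.add a (Nat.mul 10 c))))
    (fv (Nat.add b (Nat.mul 10 a))))
    (fv (Nat.add (Nat.add a b) (Nat.mul 10 c))))
    (fv (Nat.add c (Nat.mul 10 b))))
    (fv (Nat.add c (Nat.mul 10 d))))
    (fv (Nat.add (Nat.add b c) (Nat.mul 10 d))))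
    (fv (Nat.add d (Nat.mul 10 (Nat.add a b)))))
    (fv (Nat.add (Nat.add a d) (Nat.mul 10 (Nat.add b c)))))

def A2 (a b c d g s : ℕ) : ℕ :=
  (Nat.mul (Nat.mul (Nat.mul (Nat.mul (Nat.mul (Nat.mul s
    (fv (Nat.add a (Nat.mul 10 g))))
    (fv (Nat.add c (Nat.mul 10 (Nat.add a g)))))
    (fv (Nat.add d (Nat.mul 10 (Nat.add c g)))))
    (fv g))
    (fv (Nat.add g (Nat.mul 10 b))))
    (fv (Nat.add (Nat.add b g) (Nat.mul 10 d))))

def A3 (a c d g x s : ℕ) : ℕ :=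
  (Nat.mul (Nat.mul (Nat.mul s
    (fv (Nat.add (Nat.add a g) (Nat.mul 10 x))))
    (fv (Nat.add (Nat.add a x) (Nat.mul 10 d))))
    (fv (Nat.add (Nat.add c g) (Nat.mul 10 (Nat.add a x)))))

def A4 (a c d g x s : ℕ) : ℕ :=
  (Nat.mul (Nat.mul (Nat.mul s
    (fv (Nat.add (Nat.add c x) (Nat.mul 10 (Nat.add a d)))))
    (fv (Nat.add (Nat.add d g) (Nat.mul 10 (Nat.add c x)))))
    (fv (Nat.add x (Nat.mul 10 c))))

def A5 (b g x s : ℕ) : ℕ :=
  (Nat.mul (Nat.mul s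
    (fv (Nat.add x (Nat.mul 10 g))))
    (fv (Nat.add x (Nat.mul 10 (Nat.add b g)))))

def A6 (b d g x s : ℕ) : ℕ :=
  (Nat.mul (Nat.mul (Nat.mul (Nat.mul s
    (fv (Nat.add (Nat.add b x) (Nat.mul 10 (Nat.add d g)))))
    (fv (Nat.add d (Nat.mul 10 x))))
    (fv (Nat.add d (Nat.mul 10 (Nat.add b x)))))
    (fv (Nat.add b (Nat.mul 10 x))))

def chk (a : ℕ) : Bool :=
  a11 fun c => a11 fun b => a11 fun d => stp (A1 a b c d) fun s => a11 fun g =>
    stp (A2 a b c d g s) fun s => a11 fun x => stp (A3 a c d g x s) fun s =>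
      stp (A4 a c d g x s) fun s => stp (A5 b g x s) fun s => stp (A6 b d g x s) fun _ => false

def lns : List (ℕ × ℕ × ℕ) :=
  [(0, 4, 8), (0, 5, 7), (0, 9, 18), (0, 10, 21), (0, 11, 24),
   (1, 3, 8), (1, 5, 6), (1, 12, 18), (1, 13, 21), (1, 14, 24),
   (2, 3, 7), (2, 4, 6), (2, 15, 18), (2, 16, 21), (2, 17, 24),
   (3, 1, 8), (3, 2, 7), (3, 9, 19), (3, 10, 22), (3, 11, 25),
   (4, 0, 8), (4, 2, 6), (4, 12, 19), (4, 13, 22), (4, 14, 25),
   (5, 0, 7), (5, 1, 6), (5, 15, 19), (5, 16, 22), (5, 17, 25),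
   (6, 1, 5), (6, 2, 4), (6, 9, 20), (6, 10, 23), (6, 11, 26),
   (7, 0, 5), (7, 2, 3), (7, 12, 20), (7, 13, 23), (7, 14, 26),
   (8, 0, 4), (8, 1, 3), (8, 15, 20), (8, 16, 23), (8, 17, 26),
   (9, 0, 18), (9, 3, 19), (9, 6, 20), (9, 13, 17), (9, 14, 16),
   (10, 0, 21), (10, 3, 22), (10, 6, 23), (10, 12, 17), (10, 14, 15),
   (11, 0, 24), (11, 3, 25), (11, 6, 26), (11, 12, 16), (11, 13, 15),
   (12, 1, 18), (12, 4, 19), (12, 7, 20), (12, 10, 17), (12, 11, 16),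
   (13, 1, 21), (13, 4, 22), (13, 7, 23), (13, 9, 17), (13, 11, 15),
   (14, 1, 24), (14, 4, 25), (14, 7, 26), (14, 9, 16), (14, 10, 15),
   (15, 2, 18), (15, 5, 19), (15, 8, 20), (15, 10, 14), (15, 11, 13),
   (16, 2, 21), (16, 5, 22), (16, 8, 23), (16, 9, 14), (16, 11, 12),
   (17, 2, 24), (17, 5, 25), (17, 8, 26), (17, 9, 13), (17, 10, 12),
   (18, 0, 9), (18, 1, 12), (18, 2, 15), (18, 22, 26), (18, 23, 25),
   (19, 3, 9), (19, 4, 12), (19, 5, 15), (19, 21, 26), (19, 23, 24),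
   (20, 6, 9), (20, 7, 12), (20, 8, 15), (20, 21, 25), (20, 22, 24),
   (21, 0, 10), (21, 1, 13), (21, 2, 16), (21, 19, 26), (21, 20, 25),
   (22, 3, 10), (22, 4, 13), (22, 5, 16), (22, 18, 26), (22, 20, 24),
   (23, 6, 10), (23, 7, 13), (23, 8, 16), (23, 18, 25), (23, 19, 24),
   (24, 0, 11), (24, 1, 14), (24, 2, 17), (24, 19, 23), (24, 20, 22),
   (25, 3, 11), (25, 4, 14), (25, 5, 17), (25, 18, 23), (25, 20, 21),
   (26, 6, 11), (26, 7, 14), (26, 8, 17), (26, 18, 22), (26, 19, 21)]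

def wn : H39.E6.I → Fin 6 → ℕ
  | (0, 0, 0) => ![1, 0, 0, 0, 0, 10]
  | (0, 0, 1) => ![1, 0, 0, 0, 10, 1]
  | (0, 0, 2) => ![1, 0, 0, 10, 1, 0]
  | (0, 1, 0) => ![10, 0, 1, 0, 0, 10]
  | (0, 1, 1) => ![10, 0, 1, 0, 10, 1]
  | (0, 1, 2) => ![10, 0, 1, 10, 1, 0]
  | (0, 2, 0) => ![0, 0, 10, 1, 0, 10]
  | (0, 2, 1) => ![0, 0, 10, 1, 10, 1]
  | (0, 2, 2) => ![0, 0, 10, 0, 1, 0]
  | (1, 0, 0) => ![0, 0, 0, 0, 0, 1]
  | (1, 0, 1) => ![0, 10, 0, 0, 0, 1]
  | (1, 0, 2) => ![0, 1, 0, 10, 0, 1]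
  | (1, 1, 0) => ![0, 0, 0, 0, 1, 10]
  | (1, 1, 1) => ![0, 10, 0, 0, 1, 10]
  | (1, 1, 2) => ![0, 1, 0, 10, 1, 10]
  | (1, 2, 0) => ![0, 0, 0, 1, 10, 0]
  | (1, 2, 1) => ![0, 10, 0, 1, 10, 0]
  | (1, 2, 2) => ![0, 1, 0, 0, 10, 0]
  | (2, 0, 0) => ![10, 0, 0, 0, 0, 0]
  | (2, 0, 1) => ![1, 0, 10, 0, 0, 0]
  | (2, 0, 2) => ![0, 0, 1, 10, 0, 0]
  | (2, 1, 0) => ![10, 1, 0, 0, 0, 0]
  | (2, 1, 1) => ![1, 1, 10, 0, 0, 0]
  | (2, 1, 2) => ![0, 1, 1, 10, 0, 0]
  | (2, 2, 0) => ![10, 10, 0, 1, 0, 0]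
  | (2, 2, 1) => ![1, 10, 10, 1, 0, 0]
  | (2, 2, 2) => ![0, 10, 1, 0, 0, 0]

def tb (C k : ℕ) : Bool := Nat.beq (Nat.mod (Nat.shiftRight C k) 2) 1

def fnd (C : ℕ) (k : ℕ → ℕ → Bool) (L : List (ℕ × ℕ × ℕ)) : Bool :=
  List.rec false (fun t _ ih => Bool.rec ih (Bool.rec (Bool.rec (k t.2.1 t.2.2) ih (tb C t.2.2)) ih
    (tb C t.2.1)) (tb C t.1)) L

def srch (n : ℕ) : ℕ → Bool :=
  Nat.rec (fun C => fnd C (fun _ _ => true) lns) (fun _ ih C => fnd C (fun a b =>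
    frc (Nat.lor C (Nat.pow 2 a)) ih && frc (Nat.lor C (Nat.pow 2 b)) ih) lns) n

theorem srch_all : (List.range 27).all (fun x => srch 9 (2 ^ x)) = true := by decide +kernel

theorem chk0 : chk 0 = true := by decide +kernel

theorem chk1 : chk 1 = true := by decide +kernel

theorem frc_eq (n : ℕ) (k : ℕ → Bool) : frc n k = k n := by cases n <;> rfl

theorem tb_eq (C k : ℕ) : tb C k = C.testBit k := by
  rw [Nat.testBit_eq_decide_div_mod_eq, ← Nat.shiftRight_eq_div_pow, Bool.eq_iff_iff,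
    decide_eq_true_iff]
  exact Nat.beq_eq.to_iff

theorem fnd_spec {C : ℕ} {k : ℕ → ℕ → Bool} {L : List (ℕ × ℕ × ℕ)} (h : fnd C k L = true) :
    ∃ t ∈ L, C.testBit t.1 = true ∧ C.testBit t.2.1 = false ∧ C.testBit t.2.2 = false ∧
      k t.2.1 t.2.2 = true := by
  induction L with
  | nil => exact absurd h (by simp [fnd])
  | cons t L ih =>
    have e : fnd C k (t :: L) = Bool.rec (fnd C k L) (Bool.rec (Bool.rec (k t.2.1 t.2.2) (fnd C k L)
      (tb C t.2.2)) (fnd C k L) (tb C t.2.1)) (tb C t.1) := rfl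
    rw [e, tb_eq, tb_eq, tb_eq] at h
    have ih' : fnd C k L = true → ∃ t' ∈ t :: L, C.testBit t'.1 = true ∧ C.testBit t'.2.1 = false ∧
        C.testBit t'.2.2 = false ∧ k t'.2.1 t'.2.2 = true := fun h =>
      (ih h).imp fun _ h' => ⟨List.mem_cons_of_mem _ h'.1, h'.2⟩
    cases h1 : C.testBit t.1 <;> cases h2 : C.testBit t.2.1 <;> cases h3 : C.testBit t.2.2 <;>
      rw [h1, h2, h3] at h <;> first
      | exact ih' h
      | exact ⟨t, List.mem_cons_self, h1, h2, h3, h⟩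

theorem srch_spec {D : Finset ℕ} (hD : ∀ t ∈ lns, t.1 ∈ D → t.2.1 ∈ D ∨ t.2.2 ∈ D) (n : ℕ) :
    ∀ (C : ℕ) (S : Finset ℕ), (∀ i, C.testBit i = true ↔ i ∈ S) → S ⊆ D → srch n C = true →
      S.card + n + 1 ≤ D.card := by
  have ins : ∀ (C a : ℕ) (S : Finset ℕ), (∀ i, C.testBit i = true ↔ i ∈ S) →
      ∀ i, (Nat.lor C (Nat.pow 2 a)).testBit i = true ↔ i ∈ insert a S := by
    intro C a S h i
    rw [Nat.lor_eq, Nat.pow_eq, Nat.testBit_or, Bool.or_eq_true, h, Nat.testBit_two_pow,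
      decide_eq_true_iff, Finset.mem_insert, or_comm, eq_comm]
  induction n with
  | zero =>
    intro C S hS hSD h
    obtain ⟨t, ht, h1, h2, h3, -⟩ := fnd_spec (C := C) (L := lns) (k := fun _ _ => true) h
    have key : ∀ a, C.testBit a = false → a ∈ D → S.card + 0 + 1 ≤ D.card := fun a h2 ha => by
      rw [add_zero, ← Finset.card_insert_of_notMem (a := a) (by rw [← hS, h2]; simp)]
      exact Finset.card_le_card (Finset.insert_subset ha hSD)
    exact (hD t ht (hSD ((hS _).1 h1))).elim (key _ h2) (key _ h3)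
  | succ n ih =>
    intro C S hS hSD h
    obtain ⟨t, ht, h1, h2, h3, h4⟩ := fnd_spec (C := C) (L := lns) (k := fun a b =>
      frc (Nat.lor C (Nat.pow 2 a)) (srch n) && frc (Nat.lor C (Nat.pow 2 b)) (srch n)) h
    rw [Bool.and_eq_true, frc_eq, frc_eq] at h4
    have key : ∀ a, C.testBit a = false → srch n (Nat.lor C (Nat.pow 2 a)) = true → a ∈ D →
        S.card + (n + 1) + 1 ≤ D.card := fun a h2 h4 ha => by
      have := ih _ _ (ins C a S hS) (Finset.insert_subset ha hSD) h4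
      rw [Finset.card_insert_of_notMem (by rw [← hS, h2]; simp)] at this
      omega
    exact (hD t ht (hSD ((hS _).1 h1))).elim (key _ h2 h4.1) (key _ h3 h4.2)

/-- the index of a weight -/
def ix (l : H39.E6.I) : ℕ := 9 * l.1.val + 3 * l.2.1.val + l.2.2.val

def pt (n : ℕ) : H39.E6.I := (Fin.ofNat 3 (n / 9), Fin.ofNat 3 (n / 3), Fin.ofNat 3 n)

theorem pt_ix : ∀ l, pt (ix l) = l ∧ ix l < 27 := by decide +kernel

theorem lns_spec : ∀ t ∈ lns, ix (pt t.2.1) = t.2.1 ∧ ix (pt t.2.2) = t.2.2 ∧ ix (pt t.1) = t.1 ∧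
    ∀ i, H39.E6.ex i (pt t.1) + H39.E6.ex i (pt t.2.1) + H39.E6.ex i (pt t.2.2) = 0 := by
  decide +kernel

theorem wn_spec : ∀ i l, (wn l i : ℤ) = H39.E6.ex i l % 11 := by decide +kernel

theorem a11_spec {p : ℕ → Bool} (h : a11 p = true) {v : ℕ} (hv : v < 11) : p v = true := by
  simp only [a11, Bool.and_eq_true] at h
  obtain ⟨h0, h1, h2, h3, h4, h5, h6, h7, h8, h9, h10⟩ := h
  interval_cases v <;> assumption

theorem stp_spec {s : ℕ} {k : ℕ → Bool} (h : stp s k = true) (hs : s ∣ TT) : k s = true := by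
  rw [stp, frc_eq] at h
  have : Nat.mod 1287184326437946477340800 s = 0 := Nat.mod_eq_zero_of_dvd hs
  rwa [this] at h

theorem chk_spec {a b c d x g : ℕ} (h : chk a = true) (hb : b < 11) (hc : c < 11) (hd : d < 11)
    (hx : x < 11) (hg : g < 11) :
    ¬ A6 b d g x (A5 b g x (A4 a c d g x (A3 a c d g x (A2 a b c d g (A1 a b c d))))) ∣ TT := by
  intro h6
  have h5 := (show A5 b g x _ ∣ A6 b d g x _ from
    (((Dvd.intro _ rfl).mul_right _).mul_right _).mul_right _).trans h6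
  have h4 := (show A4 a c d g x _ ∣ A5 b g x _ from (Dvd.intro _ rfl).mul_right _).trans h5
  have h3 := (show A3 a c d g x _ ∣ A4 a c d g x _ from
    ((Dvd.intro _ rfl).mul_right _).mul_right _).trans h4
  have h2 := (show A2 a b c d g _ ∣ A3 a c d g x _ from
    ((Dvd.intro _ rfl).mul_right _).mul_right _).trans h3
  have h1 := (show A1 a b c d ∣ A2 a b c d g _ from
    (((((Dvd.intro _ rfl).mul_right _).mul_right _).mul_right _).mul_right _).mul_right _).trans h2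
  have t1 := a11_spec (a11_spec (a11_spec h hc) hb) hd
  have t2 := a11_spec (stp_spec t1 h1) hg
  have t3 := a11_spec (stp_spec t2 h2) hx
  have t4 := stp_spec t3 h3
  have t5 := stp_spec t4 h4
  have t6 := stp_spec t5 h5
  exact Bool.false_ne_true (stp_spec t6 h6)

theorem prod_eq (e : Fin 6 → ℕ) : ∏ l, fv (∑ i, e i * wn l i) =
    A6 (e 1) (e 3) (e 5) (e 4) (A5 (e 1) (e 5) (e 4) (A4 (e 0) (e 2) (e 3) (e 5) (e 4)
      (A3 (e 0) (e 2) (e 3) (e 5) (e 4) (A2 (e 0) (e 1) (e 2) (e 3) (e 5)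
        (A1 (e 0) (e 1) (e 2) (e 3)))))) := by
  simp only [Fintype.prod_prod_type, Fin.prod_univ_three, Fin.sum_univ_six, wn, A1, A2, A3, A4, A5,
    A6, Nat.mul_eq, Nat.add_eq, Matrix.cons_val]
  ring_nf

theorem fv_mod (v : ℕ) : fv (v % 11) = fv v := by
  have : Nat.mod (v % 11) 11 = Nat.mod v 11 := Nat.mod_mod _ _
  rw [fv, fv, this]

theorem TT_eq : ∏ v ∈ Finset.range 11, fv v ^ (if v = 0 then 7 else 2) = TT := by decide +kernel

variable {K : Type*} [Field K]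

theorem dv_line (c : Fin 6 → Kˣ) {k a b : H39.E6.I}
    (h : ∀ i, H39.E6.ex i k + H39.E6.ex i a + H39.E6.ex i b = 0) :
    dv c k * dv c a * dv c b = 1 := by
  rw [dv, dv, dv, ← Finset.prod_mul_distrib, ← Finset.prod_mul_distrib]
  refine Finset.prod_eq_one fun i _ => ?_
  rw [← zpow_add₀ (c i).ne_zero, ← zpow_add₀ (c i).ne_zero, h, zpow_zero]

theorem eq_one (c : Fin 6 → Kˣ) (h : ∀ l, dv c l = 1) : c = 1 := by
  have e : ∀ l i, H39.E6.ex i l = if wn l i = 10 then -1 else (wn l i : ℤ) := by decide +kernel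
  have h1 := h (2, 0, 0)
  have h2 := h (2, 0, 1)
  have h3 := h (2, 0, 2)
  have h4 := h (2, 1, 0)
  have h5 := h (1, 0, 0)
  have h6 := h (1, 1, 0)
  simp [dv, Fin.prod_univ_six, e, wn] at h1 h2 h3 h4 h5 h6
  simp [h1] at h2 h4
  simp [h2] at h3
  simp [h5] at h6
  funext i
  fin_cases i <;> simp [*]

end Cb

open Cb

theorem comb_fix {K : Type*} [Field K] (c : Fin 6 → Kˣ) (h : 17 ≤ Nat.card {l // dv c l = 1}) : c = 1 := by
  classical
  refine eq_one c fun l => ?_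
  by_contra hl
  have hi : Function.Injective ix := fun x y e => by rw [← (pt_ix x).1, e, (pt_ix y).1]
  have hm : ∀ l, ix l ∈ (Finset.univ.filter fun l => ¬ dv c l = 1).image ix ↔ dv c l ≠ 1 := by
    intro l
    rw [hi.mem_finset_image]
    simp
  have h1 := srch_spec (D := (Finset.univ.filter fun l => ¬ dv c l = 1).image ix) (by
    intro t ht h0
    obtain ⟨e1, e2, e3, e4⟩ := lns_spec t ht
    rw [← e3, hm] at h0
    rw [← e1, ← e2, hm, hm]
    by_contra! hc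
    have := dv_line c e4
    rw [hc.1, hc.2, mul_one, mul_one] at this
    exact h0 this) 9 (2 ^ ix l) {ix l} (fun i => by
      rw [Nat.testBit_two_pow, decide_eq_true_iff, Finset.mem_singleton, eq_comm])
    (Finset.singleton_subset_iff.2 ((hm l).2 hl))
    (List.all_eq_true.1 srch_all _ (List.mem_range.2 (pt_ix l).2))
  rw [Finset.card_image_of_injective _ hi, Finset.card_singleton] at h1
  have h2 := Finset.card_filter_add_card_filter_not (s := Finset.univ) fun l => dv c l = 1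
  rw [Nat.card_eq_fintype_card, Fintype.card_subtype] at h
  rw [Finset.card_univ, show Fintype.card Lie.I27 = 27 by simp] at h2
  omega

theorem comb_rat {K : Type*} [Field K] (c : Fin 6 → Kˣ) (h1 : ∀ l, dv c l ^ 11 = 1)
    (h2 : ∀ a b : K, a ^ 11 = 1 → b ^ 11 = 1 → a ≠ 1 → b ≠ 1 →
      Nat.card {l // dv c l = a} = Nat.card {l // dv c l = b}) : c = 1 := by
  classical
  by_contra hc
  have h3 : ∀ i, (c i : K) ^ 11 = 1 := by
    have := eq_one (c ^ 11) fun l => by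
      rw [← h1 l, dv, dv, ← Finset.prod_pow]
      refine Finset.prod_congr rfl fun i _ => ?_
      rw [Pi.pow_apply, Units.val_pow_eq_pow_val, ← zpow_natCast, ← zpow_natCast, ← zpow_mul,
        ← zpow_mul, mul_comm]
    intro i
    rw [← Units.val_pow_eq_pow_val, ← Pi.pow_apply, this]
    rfl
  have : Fact (Nat.Prime 11) := ⟨by norm_num⟩
  have prim : ∀ i, (c i : K) ≠ 1 → IsPrimitiveRoot (c i : K) 11 := fun i hi =>
    IsPrimitiveRoot.iff_orderOf.2 (orderOf_eq_prime (h3 i) hi)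
  obtain ⟨z, hz, e, he, hez, he0⟩ : ∃ z : K, IsPrimitiveRoot z 11 ∧ ∃ e : Fin 6 → ℕ,
      (∀ i, e i < 11) ∧ (∀ i, z ^ e i = c i) ∧ (e 0 = 0 ∨ e 0 = 1) := by
    by_cases h0 : (c 0 : K) = 1
    · obtain ⟨i, hi⟩ : ∃ i, (c i : K) ≠ 1 := by
        by_contra! hh
        exact hc (funext fun i => Units.ext (hh i))
      choose e he hez using fun j => (prim i hi).eq_pow_of_pow_eq_one (h3 j)
      exact ⟨c i, prim i hi, e, he, hez, Or.inl
        ((prim i hi).pow_inj (he 0) (by norm_num) (by rw [hez, h0, pow_zero]))⟩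
    · choose e he hez using fun j => (prim 0 h0).eq_pow_of_pow_eq_one (h3 j)
      exact ⟨c 0, prim 0 h0, e, he, hez, Or.inr
        ((prim 0 h0).pow_inj (he 0) (by norm_num) (by rw [hez, pow_one]))⟩
  have hdv : ∀ l, dv c l = z ^ ((∑ i, e i * wn l i) % 11) := by
    intro l
    rw [← pow_eq_pow_mod _ hz.pow_eq_one, ← Finset.prod_pow_eq_pow_sum, dv]
    refine Finset.prod_congr rfl fun i _ => ?_
    rw [pow_mul, hez, ← zpow_natCast, wn_spec]
    have : c i ^ (11 : ℤ) = 1 := (zpow_natCast (c i) 11).trans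
      (Units.ext ((Units.val_pow_eq_pow_val _ _).trans (h3 i)))
    rw [← Units.val_zpow_eq_zpow_val, ← Units.val_zpow_eq_zpow_val, ← zpow_eq_zpow_emod _ this]
  have hN : ∀ v < 11, (Finset.univ.filter fun l => (∑ i, e i * wn l i) % 11 = v).card =
      Nat.card {l // dv c l = z ^ v} := by
    intro v hv
    rw [Nat.card_eq_fintype_card, Fintype.card_subtype]
    refine congrArg _ (Finset.filter_congr fun l _ => ?_)
    rw [hdv]
    exact ⟨fun e => by rw [e], hz.pow_inj (Nat.mod_lt _ (by norm_num)) hv⟩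
  have hmap : ∀ l ∈ (Finset.univ : Finset H39.E6.I), (∑ i, e i * wn l i) % 11 ∈ Finset.range 11 :=
    fun l _ => Finset.mem_range.2 (Nat.mod_lt _ (by norm_num))
  have hm : ∀ v < 11, v ≠ 0 → Nat.card {l // dv c l = z ^ v} = Nat.card {l // dv c l = z ^ 1} := by
    intro v hv v0
    have : ∀ j, (z ^ j) ^ 11 = 1 := fun j => by rw [← pow_mul, mul_comm, pow_mul, hz.pow_eq_one, one_pow]
    exact h2 _ _ (this v) (this 1) (hz.pow_ne_one_of_pos_of_lt v0 hv)
      (hz.pow_ne_one_of_pos_of_lt one_ne_zero (by norm_num))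
  have hsum := Finset.card_eq_sum_card_fiberwise hmap
  rw [Finset.card_univ, show Fintype.card H39.E6.I = 27 by simp, Finset.sum_range_succ',
    Finset.sum_congr rfl (fun v hv => (hN _ (by have := Finset.mem_range.1 hv; omega)).trans
      (hm _ (by have := Finset.mem_range.1 hv; omega) (Nat.succ_ne_zero v))),
    hN 0 (by norm_num), Finset.sum_const, Finset.card_range, smul_eq_mul, pow_zero] at hsum
  have h17 : ¬ 17 ≤ Nat.card {l // dv c l = 1} := fun h => hc (comb_fix c h)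
  have hprod : ∏ l, fv (∑ i, e i * wn l i) = TT := by
    rw [← TT_eq, ← Finset.prod_fiberwise_of_maps_to hmap]
    refine Finset.prod_congr rfl fun v hv => ?_
    rw [Finset.prod_congr rfl (g := fun _ => fv v) (fun l hl => by
      rw [← fv_mod, (Finset.mem_filter.1 hl).2]), Finset.prod_const, hN v (Finset.mem_range.1 hv)]
    congr 1
    split_ifs with v0
    · rw [v0, pow_zero]
      omega
    · rw [hm v (Finset.mem_range.1 hv) v0]
      omega
  rw [prod_eq] at hprod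
  exact chk_spec (a := e 0) (he0.elim (fun h => h ▸ chk0) fun h => h ▸ chk1) (he 1) (he 2) (he 3)
    (he 4) (he 5) (hprod ▸ dvd_rfl)

end Cfsg.Agent.ALT6
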