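import Cfsg.Agent.H67.FeitTits
import Cfsg.Agent.H67.AltRep
import Cfsg.Agent.H39.E6c

/-! Alternating sections of groups of type `E₆`: the eigenvalue restrictions on the 27-dimensional module. -/

set_option autoImplicit false

namespace Cfsg.Agent.ALT6

open Module

/-- the eigenvalue, on the weight `l`, of the torus element with coordinates `c` -/
def dv {K : Type*} [Field K] (c : Fin 6 → Kˣ) (l : Lie.I27) : K := ∏ i, (c i : K) ^ H39.E6.ex i l

/-- the properties of the 27-dimensional module of a group of type `E₆` that are used -/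
structure E6R {G K V : Type*} [Group G] [Field K] [AddCommGroup V] [Module K V] (ρ : G →* End K V) : Prop where
  dim : finrank K V = 27
  fix : ∀ (g : G) (m : ℕ), g ^ m = 1 → (m : K) ≠ 0 → 17 ≤ finrank K ((ρ g).eigenspace 1) → g = 1
  rat : ∀ g : G, g ^ 11 = 1 → (11 : K) ≠ 0 → (∀ a b : K, a ^ 11 = 1 → b ^ 11 = 1 → a ≠ 1 → b ≠ 1 →
    finrank K ((ρ g).eigenspace a) = finrank K ((ρ g).eigenspace b)) → g = 1

variable {G K V : Type*} [Group G] [Field K] [AddCommGroup V] [Module K V] {ρ : G →* End K V}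

theorem E6R.comp {H : Type*} [Group H] (h : E6R ρ) {j : H →* G} (hj : Function.Injective j) : E6R (ρ.comp j) :=
  ⟨h.dim, fun g m h1 h2 h3 => (map_eq_one_iff j hj).1 (h.fix _ m (by rw [← map_pow, h1, map_one]) h2 h3),
    fun g h1 h2 h3 => (map_eq_one_iff j hj).1 (h.rat _ (by rw [← map_pow, h1, map_one]) h2 h3)⟩

theorem E6R.eq_one (h : E6R ρ) {g : G} {m : ℕ} (h1 : g ^ m = 1) (h2 : (m : K) ≠ 0) (h3 : ρ g = 1) : g = 1 :=
  h.fix g m h1 h2 (by
    rw [show (ρ g).eigenspace 1 = ⊤ from eq_top_iff.2 fun v _ => End.mem_eigenspace_iff.2 (by simp [h3]),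
      finrank_top, h.dim]
    norm_num)

end Cfsg.Agent.ALT6
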