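import Cfsg.Agent.S2653

/-! Subgroups of small index in covers of alternating groups (for ALT6/NonCen). -/

set_option autoImplicit false

namespace Cfsg.Agent.ALT6.NC

open Subgroup Equiv
open scoped commutatorElement

theorem mem_of_small {A B : Type*} [Group A] [Finite A] [Group B] [Finite B] (ι : B →* A) {u : A}
    (hu : u ^ 5 = 1) (hc : ∀ b, Commute u (ι b)) (hB : ∀ P : Subgroup B, P.index ≤ 5 → P = ⊤)
    (hp : commutator B = ⊤) {M : Subgroup A} (hM : M.index ≤ 27) (huM : u ∉ M) (b : B) :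
    ι b ∈ M := by
  have : Fact (Nat.Prime 5) := ⟨by norm_num⟩
  have h5 : Nat.card (zpowers u) = 5 := by
    rw [Nat.card_zpowers]
    exact orderOf_eq_prime hu fun e => huM (e ▸ one_mem M)
  let θ : zpowers u × B →* A := (zpowers u).subtype.noncommCoprod ι fun x b => by
    obtain ⟨_, k, rfl⟩ := x
    exact (hc b).zpow_left k
  have h1 : (M.comap θ).index ≤ 27 := by
    rw [index_comap]
    refine le_trans ?_ hM
    rw [← relIndex_top_right]
    exact relIndex_le_of_le_right le_top (by rw [relIndex_top_right]; exact index_ne_zero_of_finite)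
  have h2 : Nat.card ((M.comap θ).map (MonoidHom.snd _ _)) = Nat.card (M.comap θ) := by
    rw [← MonoidHom.domRestrict_range]
    refine (Nat.card_congr (MonoidHom.ofInjective ((injective_iff_map_eq_one _).2 ?_)).toEquiv).symm
    rintro ⟨⟨x, b⟩, hx⟩ (rfl : b = 1)
    have hx' : (x : A) ∈ M := by simpa [θ] using hx
    have : x = 1 := by
      by_contra h
      obtain ⟨k, hk⟩ := mem_zpowers_of_prime_card h5 (g' := ⟨u, mem_zpowers u⟩) h
      have hk' : (x : A) ^ k = u := congrArg Subtype.val hk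
      have := zpow_mem hx' k
      rw [hk'] at this
      exact huM this
    exact Subtype.ext (Prod.ext this rfl)
  have h3 := (M.comap θ).card_mul_index
  have h4 := ((M.comap θ).map (MonoidHom.snd _ _)).card_mul_index
  rw [Nat.card_prod, h5, ← h4, h2, mul_left_comm] at h3
  have h6 := hB ((M.comap θ).map (MonoidHom.snd _ _)) (by
    have := Nat.eq_of_mul_eq_mul_left Nat.card_pos h3
    omega)
  refine (show commutator B ≤ M.comap ι from commutator_le.2 fun b _ b' _ => ?_) (hp ▸ mem_top b)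
  obtain ⟨⟨x, c⟩, hx, rfl⟩ := h6.ge (mem_top b)
  obtain ⟨⟨x', c'⟩, hx', rfl⟩ := h6.ge (mem_top b')
  have h7 : ⁅(x, c), (x', c')⁆ ∈ M.comap θ :=
    mul_mem (mul_mem (mul_mem hx hx') (inv_mem hx)) (inv_mem hx')
  have h8 : ⁅(x, c), (x', c')⁆ = ((1 : zpowers u), ⁅c, c'⁆) := by
    refine Prod.ext ?_ rfl
    change ⁅x, x'⁆ = 1
    exact commutatorElement_eq_one_iff_mul_comm.2 (mul_comm' x x')
  rw [h8] at h7
  simpa [θ] using h7

theorem eq_top_of_index {α : Type*} [Fintype α] [DecidableEq α] (h : 6 ≤ Fintype.card α)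
    (P : Subgroup (alternatingGroup α)) (hP : P.index ≤ 5) : P = ⊤ := by
  classical
  by_contra hne
  have := alternatingGroup.isSimpleGroup (α := α) (by rw [Nat.card_eq_fintype_card]; omega)
  have : Nontrivial α := Fintype.one_lt_card_iff_nontrivial.1 (by omega)
  have h1 := Nat.card_le_card_of_injective _ ((MonoidHom.ker_eq_bot_iff _).1 (P.normalCore_eq_ker ▸
    (P.normalCore_normal.eq_bot_or_eq_top.resolve_right fun h1 => hne (top_le_iff.1
      (h1 ▸ P.normalCore_le)))))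
  have h2 := two_mul_nat_card_alternatingGroup (α := α)
  rw [Nat.card_perm] at h1 h2
  have h3 := Nat.factorial_le (show Nat.card (_ ⧸ P) ≤ 5 from hP)
  have h4 := Nat.factorial_le (show 6 ≤ Nat.card α by rwa [Nat.card_eq_fintype_card])
  rw [show Nat.factorial 5 = 120 from rfl] at h3
  rw [show Nat.factorial 6 = 720 from rfl] at h4
  omega

theorem exists_pair {r : ℕ} (hr : 12 ≤ r) : ∃ u g : alternatingGroup (Fin r), u ^ 5 = 1 ∧ u ≠ 1 ∧
    ∀ M : Subgroup (alternatingGroup (Fin r)), M.index ≤ 27 → u ∈ M ∨ g * u * g⁻¹ ∈ M := by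
  obtain ⟨u, hu⟩ := (Perm.exists_with_cycleType_iff (Fin r) (m := {5})).2
    ⟨by simp; omega, by simp⟩
  have h1 : u.support.card = 5 := by rw [← Perm.sum_cycleType, hu]; simp
  have h2 : Fintype.card {x // x ∈ u.supportᶜ} = r - 5 := by
    rw [Fintype.card_coe, Finset.card_compl, h1, Fintype.card_fin]
  obtain ⟨c, hc⟩ := (Perm.exists_with_cycleType_iff {x // x ∈ u.supportᶜ} (m := {5})).2
    ⟨by rw [h2]; simp; omega, by simp⟩
  have su : u ∈ alternatingGroup (Fin r) := by
    rw [Perm.mem_alternatingGroup, Perm.sign_of_cycleType, hu]; simp; rfl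
  have sc : c ∈ alternatingGroup {x // x ∈ u.supportᶜ} := by
    rw [Perm.mem_alternatingGroup, Perm.sign_of_cycleType, hc]; simp; rfl
  let ι : alternatingGroup {x // x ∈ u.supportᶜ} →* alternatingGroup (Fin r) :=
    (Perm.ofSubtype.comp (alternatingGroup _).subtype).codRestrict _ fun b => by
      rw [Perm.mem_alternatingGroup, MonoidHom.comp_apply, Perm.sign_ofSubtype]
      exact b.2
  obtain ⟨g, hg⟩ := isConj_iff.1 (alternatingGroup.isConj_of (σ := ⟨u, su⟩) (τ := ι ⟨c, sc⟩)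
    (Perm.isConj_iff_cycleType_eq.2 (hu.trans (hc.symm.trans Perm.cycleType_ofSubtype.symm)))
    (by rw [h1, Fintype.card_fin]; omega))
  have h5 : (⟨u, su⟩ : alternatingGroup (Fin r)) ^ 5 = 1 := Subtype.ext (by
    change u ^ 5 = 1
    rw [← orderOf_dvd_iff_pow_eq_one, ← Perm.lcm_cycleType, hu]; simp)
  refine ⟨⟨u, su⟩, g, h5, fun e => ?_, fun M hM => (em _).imp_right fun h => ?_⟩
  · have : u = 1 := congrArg Subtype.val e
    rw [this] at h1
    simp at h1
  · rw [hg]
    refine mem_of_small ι h5 (fun b => Subtype.ext (Perm.Disjoint.commute fun x => ?_))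
      (eq_top_of_index (by omega)) (commutator_alternatingGroup_eq_top
        (by rw [Nat.card_eq_fintype_card]; omega)) hM h _
    by_cases hx : x ∈ u.support
    · exact Or.inr (Perm.ofSubtype_apply_of_not_mem _ (by simpa using hx))
    · exact Or.inl (Perm.notMem_support.1 hx)

theorem exists_lift_pair {r : ℕ} (hr : 12 ≤ r) {G : Type*} [Group G] [Finite G]
    (φ : G →* alternatingGroup (Fin r)) (hφ : ∀ L : Subgroup G, L.map φ = ⊤ ↔ L = ⊤) :
    ∃ (y g : G) (k : ℕ), y ^ 5 ^ k = 1 ∧ φ y ≠ 1 ∧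
      ∀ L : Subgroup G, L.index ≤ 27 → y ∈ L ∨ g * y * g⁻¹ ∈ L := by
  have hs : Function.Surjective φ :=
    MonoidHom.range_eq_top.1 (φ.range_eq_map.trans ((hφ ⊤).2 rfl))
  obtain ⟨u, g, h1, h2, h3⟩ := exists_pair hr
  obtain ⟨y, rfl⟩ := hs u
  obtain ⟨g, rfl⟩ := hs g
  obtain ⟨k, m, hm, h4⟩ := Nat.exists_eq_pow_mul_and_not_dvd (orderOf_pos y).ne' 5 (by norm_num)
  have : Fact (Nat.Prime 5) := ⟨by norm_num⟩
  have h5 : (y ^ m) ^ 5 ^ k = 1 := by rw [← pow_mul, mul_comm, ← h4, pow_orderOf_eq_one]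
  refine ⟨y ^ m, g, k, h5, fun e => hm ?_, fun L hL => ?_⟩
  · rw [← orderOf_eq_prime h1 h2, orderOf_dvd_iff_pow_eq_one, ← map_pow, e]
  by_cases h6 : L = ⊤
  · exact Or.inl (h6 ▸ mem_top _)
  have h7 := S2653.le_index (by omega) ((hφ L).not.2 h6)
  have h8 := relIndex_mul_index (le_comap_map φ L)
  rw [index_comap_of_surjective _ hs] at h8
  have h9 : L.index ≠ 0 := index_ne_zero_of_finite
  have key : ∀ w : G, w ^ 5 ^ k = 1 → φ w ∈ L.map φ → w ∈ L := by
    intro w hw hw'
    have h10 : L.relIndex ((L.map φ).comap φ) = 1 ∨ L.relIndex ((L.map φ).comap φ) = 2 := by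
      have : L.relIndex ((L.map φ).comap φ) ≠ 0 := fun e => h9 (by rw [← h8, e, zero_mul])
      have : L.relIndex ((L.map φ).comap φ) < 3 := by
        by_contra! h
        have := Nat.mul_le_mul h h7
        omega
      omega
    rcases h10 with e | e
    · exact relIndex_eq_one.1 e hw'
    · have h11 : w * w ∈ L := mul_self_mem_of_index_two e ⟨w, hw'⟩
      obtain ⟨j, hj⟩ : Odd (5 ^ k) := Odd.pow (by decide)
      rw [hj, pow_succ, pow_mul, sq] at hw
      rw [eq_inv_of_mul_eq_one_right hw]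
      exact inv_mem (pow_mem h11 j)
  have h10 : (L.map φ).index ≤ 27 :=
    (Nat.le_of_dvd (Nat.pos_of_ne_zero h9) (L.index_map_dvd hs)).trans hL
  refine (h3 _ h10).imp (fun h => key _ h5 ?_) fun h => key _ (by rw [conj_pow, h5]; simp) ?_
  · rw [map_pow]
    exact pow_mem h m
  · rw [← conj_pow, map_pow, map_mul, map_mul, map_inv]
    exact pow_mem h m

theorem sum_moved_le {G X : Type*} [Group G] [MulAction G X] [DecidableEq X] (T : Finset X)
    (d : X → ℕ) (hT : ∀ x, x ∈ T ↔ d x ≠ 0) (hd : ∀ (g : G) x, d (g • x) = d x)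
    (hs : ∑ x ∈ T, d x ≤ 27) {y g : G} {k : ℕ} (hy : y ^ 5 ^ k = 1)
    (hf : ∀ L : Subgroup G, L.index ≤ 27 → y ∈ L ∨ g * y * g⁻¹ ∈ L) :
    ∑ x ∈ T with y • x ≠ x, d x ≤ 10 := by
  classical
  have hT' : ∀ (g : G) x, g • x ∈ T ↔ x ∈ T := fun g x => by rw [hT, hT, hd]
  have h1 : ∑ x ∈ T with y • x ≠ x, d x = ∑ x ∈ T with (g * y * g⁻¹) • x ≠ x, d x :=
    Finset.sum_equiv (MulAction.toPerm g) (fun x => by
      simp [hT', mul_smul]) fun x _ => (hd g x).symm
  have h2 : T.card ≤ 27 := by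
    refine le_trans ?_ hs
    rw [Finset.card_eq_sum_ones]
    exact Finset.sum_le_sum fun x hx => Nat.one_le_iff_ne_zero.2 ((hT x).1 hx)
  have h3 : Disjoint (T.filter fun x => y • x ≠ x) (T.filter fun x => (g * y * g⁻¹) • x ≠ x) := by
    refine Finset.disjoint_filter.2 fun x hx h3 h4 => ?_
    refine (hf (MulAction.stabilizer G x) ?_).elim h3 h4
    rw [MulAction.index_stabilizer]
    refine le_trans ?_ h2
    rw [← Set.ncard_coe_finset]
    exact Set.ncard_le_ncard (by rintro _ ⟨g, rfl⟩; exact (hT' g x).2 hx) T.finite_toSet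
  have h4 := Finset.sum_le_sum_of_subset (f := d) (Finset.union_subset
    (Finset.filter_subset (fun x => y • x ≠ x) T)
    (Finset.filter_subset (fun x => (g * y * g⁻¹) • x ≠ x) T))
  rw [Finset.sum_union h3, ← h1] at h4
  have h5 : 5 ∣ ∑ x ∈ T with y • x ≠ x, d x := by
    let α := Σ x : {x // x ∈ T.filter fun x => y • x ≠ x}, Fin (d x)
    let f : Function.End α := fun a => ⟨⟨y • a.1.1, by
      have := Finset.mem_filter.1 a.1.2
      exact Finset.mem_filter.2 ⟨(hT' y _).2 this.1, fun e => this.2 (smul_left_cancel y e)⟩⟩,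
        Fin.cast (hd y _).symm a.2⟩
    have hj : ∀ a b : α, a.1.1 = b.1.1 → a.2.1 = b.2.1 → a = b := by
      rintro ⟨⟨x, hx⟩, i⟩ ⟨⟨x', hx'⟩, i'⟩ (rfl : x = x') h
      obtain rfl : i = i' := Fin.ext h
      rfl
    have hf : ∀ (n : ℕ) (a : α), ((f ^ n) a).1.1 = y ^ n • a.1.1 ∧ ((f ^ n) a).2.1 = a.2.1 := by
      intro n a
      induction n with
      | zero => exact ⟨by rw [pow_zero, pow_zero, one_smul]; rfl, rfl⟩
      | succ n ih =>
        rw [pow_succ', pow_succ', mul_smul, ← ih.1, ← ih.2]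
        exact ⟨rfl, rfl⟩
    have : Fact (Nat.Prime 5) := ⟨by norm_num⟩
    have h5 := Perm.card_fixedPoints_modEq (f := f) (p := 5) (n := k)
      (funext fun a => hj _ _ ((hf _ a).1.trans (by rw [hy, one_smul]; rfl)) (hf _ a).2)
    have h6 : IsEmpty f.fixedPoints := ⟨fun a => (Finset.mem_filter.1 a.1.1.2).2
      (congrArg (fun b : α => b.1.1) a.2)⟩
    rw [Fintype.card_eq_zero (α := f.fixedPoints), Nat.modEq_zero_iff_dvd, Fintype.card_sigma] at h5
    simp only [Fintype.card_fin] at h5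
    rwa [Finset.sum_coe_sort _ d] at h5
  omega

end Cfsg.Agent.ALT6.NC
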