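import Cfsg.Agent.ALT6.Defs
import Cfsg.Agent.S2653
import Cfsg.Agent.ALT6.NonCenA

/-! The kernel of a minimal cover of an alternating group is central (see notes/ALT6.md). -/

set_option autoImplicit false

namespace Cfsg.Agent.ALT6

open Module

namespace NC

open Subgroup H67
open scoped commutatorElement

variable {H : Type*} [Group H] {K V : Type*} [Field K] [AddCommGroup V] [Module K V]
  {ρ : H →* End K V}

theorem exists_sigma [Finite H] [Group.IsPerfect H] {E : Subgroup H} [hE : E.Normal]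
    (h3 : ¬ E ≤ center H) (h5 : ∀ D : Subgroup H, D.Normal → D ≤ E → D ≤ center H ∨ E ≤ D)
    (h7 : ⁅E, E⁆ ≤ center H) :
    ∃ (l : ℕ) (_ : Fact l.Prime) (m : ℕ) (σ : H →* Matrix (Fin m) (Fin m) (ZMod l)),
      (∃ g, σ g ≠ 1) ∧ Nat.card (E.map (QuotientGroup.mk' (center H))) = l ^ m := by
  set Q := E.map (QuotientGroup.mk' (center H)) with hQ
  have : Q.Normal := hE.map _ (QuotientGroup.mk'_surjective _)
  have h9 : ∀ a ∈ Q, ∀ b ∈ Q, Commute a b := by
    rintro _ ⟨a, ha, rfl⟩ _ ⟨b, hb, rfl⟩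
    rw [← commutatorElement_eq_one_iff_commute, ← map_commutatorElement]
    exact (QuotientGroup.eq_one_iff _).2 (h7 (commutator_mem_commutator ha hb))
  have h10 : Q ≠ ⊥ := fun h10 => h3 (by simpa using (map_eq_bot_iff E).1 h10)
  obtain ⟨l, hl, h11⟩ := Nat.exists_prime_and_dvd (mt card_eq_one.1 h10)
  have := Fact.mk hl
  obtain ⟨⟨_, x, hx, rfl⟩, h12⟩ := exists_prime_orderOf_dvd_card' l h11
  let D : Subgroup H :=
    { carrier := {a | a ∈ E ∧ QuotientGroup.mk' (center H) a ^ l = 1}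
      one_mem' := ⟨one_mem _, by simp⟩
      mul_mem' := fun {a b} ha hb => ⟨mul_mem ha.1 hb.1, by
        rw [map_mul, (h9 _ ⟨a, ha.1, rfl⟩ _ ⟨b, hb.1, rfl⟩).mul_pow, ha.2, hb.2, one_mul]⟩
      inv_mem' := fun {a} ha => ⟨inv_mem ha.1, by rw [map_inv, inv_pow, ha.2, inv_one]⟩ }
  have h13 := (h5 D ⟨fun a ha g => ⟨hE.conj_mem a ha.1 g, by
      rw [map_mul, map_mul, map_inv, conj_pow, ha.2, mul_one, mul_inv_cancel]⟩⟩
    fun a ha => ha.1).resolve_left fun h13 => hl.one_lt.ne' (h12.symm.trans (orderOf_eq_one_iff.2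
      (Subtype.ext ((QuotientGroup.eq_one_iff x).2 (h13 ⟨hx, congrArg Subtype.val
        (h12 ▸ pow_orderOf_eq_one (⟨_, x, hx, rfl⟩ : Q))⟩)))))
  obtain ⟨m, τ, h14, h15⟩ := @exists_aut_rep Q
    { mul_comm := fun a b => Subtype.ext (h9 _ a.2 _ b.2) } _ l _ (by
      rintro ⟨_, a, ha, rfl⟩
      exact Subtype.ext (h13 ha).2)
  refine ⟨l, this, m, τ.comp (MulAut.conjNormal.comp (QuotientGroup.mk' _)),
    by_contra fun h16 => h10 (eq_bot_iff.2 ?_), h15⟩
  rw [← Group.IsPerfect.center_quotient_center_eq_bot]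
  intro q hq
  refine mem_center_iff.2 fun g => ?_
  obtain ⟨g, rfl⟩ := QuotientGroup.mk'_surjective _ g
  have := h14 ((not_not.1 (not_exists.1 h16 g)).trans (map_one τ).symm)
  exact mul_inv_eq_iff_eq_mul.1 (congrArg Subtype.val (MulEquiv.congr_fun this ⟨q, hq⟩))

variable [FiniteDimensional K V]

theorem card_le_sq [Finite H] [Nontrivial V] {E : Subgroup H} (h1 : ⁅E, E⁆ ≤ center H)
    (hs : ∀ z ∈ center H, ∃ c : K, ρ z = c • 1)
    (h2 : ∀ a ∈ E, (∀ b ∈ E, ρ ⁅b, a⁆ = 1) → a ∈ center H) :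
    Nat.card (E.map (QuotientGroup.mk' (center H))) ≤ finrank K V ^ 2 := by
  choose e he he' using fun q : E.map (QuotientGroup.mk' (center H)) => q.2
  choose χ hχ using fun q (f : E) => hs _ (h1 (commutator_mem_commutator f.2 (he q)))
  rw [sq, ← finrank_linearMap K K V V]
  refine card_le_of_wsp (fun f : E => LinearMap.mulLeftRight K (ρ f, ρ f⁻¹)) (χ := χ)
    (fun q r hqr => Subtype.ext ?_) fun q => ⟨ρ (e q), ((Group.isUnit _).map ρ).ne_zero, fun f => ?_⟩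
  · rw [← he', ← he', QuotientGroup.mk'_apply, QuotientGroup.mk'_apply, QuotientGroup.eq]
    have hm := mul_mem (inv_mem (he q)) (he r)
    refine h2 _ hm fun b hb => ?_
    have h3 : ρ ⁅b, e q⁆ = ρ ⁅b, e r⁆ := (hχ q ⟨b, hb⟩).trans (hqr ▸ (hχ r ⟨b, hb⟩).symm)
    have h4 : ⁅b, e r⁆ = ⁅b, e q⁆ * ⁅b, (e q)⁻¹ * e r⁆ := by
      calc ⁅b, e r⁆ = ⁅b, e q⁆ * (e q * ⁅b, (e q)⁻¹ * e r⁆) * (e q)⁻¹ := by
            simp only [commutatorElement_def]; group
        _ = _ := by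
            rw [mem_center_iff.1 (h1 (commutator_mem_commutator hb hm)) (e q)]; group
    rw [h4, map_mul] at h3
    exact ((Group.isUnit _).map ρ).mul_left_cancel (h3.symm.trans (mul_one _).symm)
  · rw [LinearMap.mulLeftRight_apply, ← one_mul (ρ (e q)), ← smul_mul_assoc, ← hχ, one_mul]
    simp [← map_mul, commutatorElement_def]

variable [IsAlgClosed K]

theorem card_le_sq' [Finite H] {E : Subgroup H} [hE : E.Normal]
    (h5 : ∀ D : Subgroup H, D.Normal → D ≤ E → D ≤ center H ∨ E ≤ D) (h7 : ⁅E, E⁆ ≤ center H)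
    {a b : H} (ha : a ∈ E) (hb : b ∈ E) {m : ℕ} (hm : (m : K) ≠ 0) (h1 : ⁅a, b⁆ ^ m = 1)
    (h2 : ρ ⁅a, b⁆ ≠ 1) :
    Nat.card (E.map (QuotientGroup.mk' (center H))) ≤ finrank K V ^ 2 := by
  have hz := h7 (commutator_mem_commutator ha hb)
  obtain ⟨c, v, c1, -, hv, v0⟩ := exists_eig_of_mul_ne (f := ρ ⁅a, b⁆) (g := 1) hm
    (by rw [← map_pow, h1, map_one]) (by rwa [one_mul, sub_ne_zero])
  have inv : ∀ z ∈ center H, ∀ (c : K) (g : H),
      (ρ z).eigenspace c ≤ ((ρ z).eigenspace c).comap (ρ g) := fun z hz c g =>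
    End.mapsTo_genEigenspace_of_comm (Commute.map (hz.comm g) ρ) c 1
  obtain ⟨U, ⟨u1, u2, u3⟩, u4⟩ := exists_minimal_of_wellFoundedLT
    (fun U : Submodule K V => U ≠ ⊥ ∧ (∀ g, U ≤ U.comap (ρ g)) ∧ U ≤ (ρ ⁅a, b⁆).eigenspace c)
    ⟨_, (Submodule.ne_bot_iff _).2 ⟨v, End.mem_eigenspace_iff.2 hv, v0⟩, inv _ hz c, le_rfl⟩
  have := Submodule.nontrivial_iff_ne_bot.2 u1
  let ρ' : H →* End K U := Representation.subrepresentation ρ U u2
  refine (card_le_sq (ρ := ρ') h7 (fun z hz => ?_) fun x hx h3 => ?_).trans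
    (Nat.pow_le_pow_left U.finrank_le 2)
  · obtain ⟨c', w, w1, w2, w3⟩ := exists_eigvec_mem u1 (u2 z)
    refine ⟨c', LinearMap.ext fun u => Subtype.ext (End.mem_eigenspace_iff.1
      (u4 (y := U ⊓ (ρ z).eigenspace c') ⟨(Submodule.ne_bot_iff _).2
        ⟨w, ⟨w1, End.mem_eigenspace_iff.2 w3⟩, w2⟩, fun g u hu => ⟨u2 g hu.1, inv z hz c' g hu.2⟩,
          inf_le_left.trans u3⟩ inf_le_left u.2).2)⟩
  · let R : Subgroup H :=
      { carrier := {x | x ∈ E ∧ ∀ f ∈ E, ⁅f, x⁆ ∈ ρ'.ker}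
        one_mem' := ⟨one_mem _, fun f _ => by simp⟩
        mul_mem' := fun {x y} hx hy => ⟨mul_mem hx.1 hy.1, fun f hf => by
          rw [show ⁅f, x * y⁆ = ⁅f, x⁆ * (x * ⁅f, y⁆ * x⁻¹) by
            simp only [commutatorElement_def]; group]
          exact mul_mem (hx.2 f hf) (ρ'.normal_ker.conj_mem _ (hy.2 f hf) x)⟩
        inv_mem' := fun {x} hx => ⟨inv_mem hx.1, fun f hf => by
          rw [show ⁅f, x⁻¹⁆ = x⁻¹ * ⁅f, x⁆⁻¹ * x⁻¹⁻¹ by
            simp only [commutatorElement_def]; group]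
          exact ρ'.normal_ker.conj_mem _ (inv_mem (hx.2 f hf)) _⟩ }
    refine (h5 R ⟨fun x hx g => ⟨hE.conj_mem x hx.1 g, fun f hf => ?_⟩⟩
      fun x hx => hx.1).resolve_right (fun h4 => ?_) ⟨hx, h3⟩
    · rw [show ⁅f, g * x * g⁻¹⁆ = g * ⁅g⁻¹ * f * g⁻¹⁻¹, x⁆ * g⁻¹ by
        simp only [commutatorElement_def]; group]
      exact ρ'.normal_ker.conj_mem _ (hx.2 _ (hE.conj_mem f hf _)) g
    · obtain ⟨u, hu, u0⟩ := (Submodule.ne_bot_iff _).1 u1
      have h6 : ρ ⁅a, b⁆ u = u :=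
        congrArg Subtype.val (LinearMap.congr_fun ((h4 hb).2 a ha) ⟨u, hu⟩)
      rw [End.mem_eigenspace_iff.1 (u3 hu)] at h6
      exact c1 (smul_left_injective K u0 (h6.trans (one_smul K u).symm))

theorem comm_of_abelian (h : E6R ρ) {E : Subgroup H} [hE : E.Normal]
    (h2 : ∀ a ∈ E, ∀ b ∈ E, Commute a b) {m : ℕ} (hm : (m : K) ≠ 0) (h1 : ∀ a ∈ E, a ^ m = 1)
    {y g : H} {k : ℕ} (hy : y ^ 5 ^ k = 1)
    (hf : ∀ L : Subgroup H, L.index ≤ 27 → y ∈ L ∨ g * y * g⁻¹ ∈ L) :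
    y ∈ centralizer (E : Set H) := by
  classical
  let _ : MulAction H E := MulAction.compHom E (MulAut.conjNormal : H →* MulAut E)
  let _ : MulAction H (E → K) := arrowAction
  have h3 : ∀ (g : H) (ψ : E → K) (w : V), (∀ e : E, ρ e w = ψ e • w) →
      ∀ e : E, ρ e (ρ g w) = (g • ψ) e • ρ g w := fun g ψ w hw e => by
    rw [show (g • ψ) e = ψ (MulAut.conjNormal g⁻¹ e) from rfl, ← map_smul, ← hw]
    simp [← End.mul_apply, ← map_mul, ← mul_assoc]
  let d : (E → K) → ℕ := fun χ => finrank K (wsp (fun e : E => ρ e) χ)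
  have h4 : ∀ (g : H) χ, d χ ≤ d (g • χ) := fun g χ =>
    (Submodule.equivMapOfInjective _ (rho_inj ρ g) _).finrank_eq.trans_le
      (Submodule.finrank_mono (by
        rintro _ ⟨w, hw, rfl⟩
        exact mem_wsp.2 (h3 g χ w (mem_wsp.1 hw))))
  have h5 : ∀ (g : H) χ, d (g • χ) = d χ := fun g χ =>
    le_antisymm ((h4 g⁻¹ _).trans_eq (by rw [inv_smul_smul])) (h4 g χ)
  let T := (WellFoundedGT.finite_ne_bot_of_iSupIndep (iSupIndep_wsp fun e : E => ρ e)).toFinset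
  have hT : ∀ χ, χ ∈ T ↔ d χ ≠ 0 := fun χ => by
    rw [Set.Finite.mem_toFinset, Ne, Submodule.finrank_eq_zero]
    rfl
  have h6 := sum_moved_le T d hT h5 (by
    rw [← Finset.sum_coe_sort, ← h.dim]
    exact sum_finrank_wsp_le _ Subtype.val_injective) hy hf
  have h7 : ⨆ χ, wsp (fun e : E => ρ e) χ = ⊤ := by
    rw [← End.iSup_iInf_maxGenEigenspace_eq_top_of_iSup_maxGenEigenspace_eq_top_of_commute
      (fun e : E => ρ e) (fun a b _ => (h2 _ a.2 _ b.2).map ρ)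
      fun _ => End.iSup_maxGenEigenspace_eq_top _]
    refine iSup_congr fun χ => iInf_congr fun e => ?_
    have he : ρ e ^ m = 1 := by rw [← map_pow, h1 e e.2, map_one]
    exact ((End.isSemisimple_of_squarefree_aeval_eq_zero (f := ρ e)
      (Polynomial.separable_X_pow_sub_C (1 : K) hm one_ne_zero).squarefree
      (by simp [he])).isFinitelySemisimple.maxGenEigenspace_eq_eigenspace _).symm
  have h8 : ∀ S : Finset (E → K), finrank K ↥(S.sup (wsp fun e : E => ρ e)) ≤ ∑ χ ∈ S, d χ := by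
    intro S
    induction S using Finset.induction_on with
    | empty => simp
    | insert χ S hχ ih =>
      rw [Finset.sup_insert, Finset.sum_insert hχ]
      exact (Submodule.finrank_add_le_finrank_add_finrank _ _).trans (Nat.add_le_add_left ih _)
  refine mem_centralizer_iff.2 fun a ha => ?_
  have hx : a⁻¹ * (y⁻¹ * a * y) ∈ E := mul_mem (inv_mem ha) (hE.conj_mem' a ha y)
  have h9 : ⊤ ≤ (ρ (a⁻¹ * (y⁻¹ * a * y))).eigenspace 1 ⊔
      (T.filter fun χ => y • χ ≠ χ).sup (wsp fun e : E => ρ e) := by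
    rw [← h7]
    refine iSup_le fun χ => ?_
    by_cases h9 : y • χ = χ
    · refine le_sup_of_le_left fun w hw => End.mem_eigenspace_iff.2 ?_
      have e1 := mem_wsp.1 hw (MulAut.conjNormal y⁻¹ ⟨a, ha⟩)
      have e2 := mem_wsp.1 hw ⟨a, ha⟩
      rw [show χ (MulAut.conjNormal y⁻¹ ⟨a, ha⟩) = (y • χ) ⟨a, ha⟩ from rfl, h9, ← e2] at e1
      simp only [MulAut.conjNormal_apply, inv_inv] at e1
      rw [map_mul, End.mul_apply, e1, ← End.mul_apply, ← map_mul, inv_mul_cancel, map_one,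
        one_smul, End.one_apply]
    by_cases h10 : χ ∈ T
    · exact le_sup_of_le_right (Finset.le_sup (Finset.mem_filter.2 ⟨h10, h9⟩))
    · rw [hT, not_not, Submodule.finrank_eq_zero] at h10
      exact h10.le.trans bot_le
  have h10 := (Submodule.finrank_mono h9).trans (Submodule.finrank_add_le_finrank_add_finrank _ _)
  have h11 := h8 (T.filter fun χ => y • χ ≠ χ)
  rw [finrank_top, h.dim] at h10
  have h12 := h.fix _ m (h1 _ hx) hm (by omega)
  rw [inv_mul_eq_one, mul_assoc, eq_inv_mul_iff_mul_eq] at h12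
  exact h12.symm

end NC

open Subgroup H67 NC in
theorem ker_le_center {r : ℕ} (hr : 12 ≤ r) {G : Type} [Group G] [Finite G]
    (φ : G →* alternatingGroup (Fin r)) (hφ : ∀ L : Subgroup G, L.map φ = ⊤ ↔ L = ⊤)
    {K V : Type} [Field K] [IsAlgClosed K] [AddCommGroup V] [Module K V] [FiniteDimensional K V]
    {ρ : G →* End K V} (h : E6R ρ) (hk : (Nat.card φ.ker : K) ≠ 0) : φ.ker ≤ Subgroup.center G := by
  by_contra h1
  have := alternatingGroup.isSimpleGroup (α := Fin r) (by simp; omega)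
  have hs : Function.Surjective φ :=
    MonoidHom.range_eq_top.1 (φ.range_eq_map.trans ((hφ ⊤).2 rfl))
  have : Group.IsPerfect G := ⟨(hφ _).1 (by
    rw [map_commutator_eq, φ.range_eq_top_of_surjective hs]
    exact commutator_alternatingGroup_eq_top (by simp; omega))⟩
  have := frattini_nilpotent (G := G)
  have : Group.IsSolvable φ.ker := Group.isSolvable_of_isSolvable_injective
    (inclusion_injective (show φ.ker ≤ frattini G from le_iInf₂ fun M hM => by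
      by_contra h4
      refine hM.1 ((hφ _).1 ?_)
      rw [map_eq_map_iff.2 (show M ⊔ φ.ker = ⊤ ⊔ φ.ker by
        rw [top_sup_eq, hM.2 _ (left_lt_sup.2 h4)]), (hφ ⊤).2 rfl]))
  have hp : ∀ x ∈ φ.ker, x ^ Nat.card φ.ker = 1 := fun x hx =>
    congrArg Subtype.val (pow_card_eq_one' (x := (⟨x, hx⟩ : φ.ker)))
  obtain ⟨E, ⟨hE, h2, h3⟩, h4⟩ := exists_minimal_of_wellFoundedLT
    (fun E : Subgroup G => E.Normal ∧ E ≤ φ.ker ∧ ¬ E ≤ center G) ⟨_, φ.normal_ker, le_rfl, h1⟩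
  have h5 : ∀ D : Subgroup G, D.Normal → D ≤ E → D ≤ center G ∨ E ≤ D := fun D h5 h6 =>
    (em _).imp_right fun h7 => h4 ⟨h5, h6.trans h2, h7⟩ h6
  by_cases h6 : ∀ a ∈ E, ∀ b ∈ E, Commute a b
  · obtain ⟨y, g, k, hy, y1, hf⟩ := exists_lift_pair hr φ hφ
    have h7 := comm_of_abelian h h6 hk (fun a ha => hp a (h2 ha)) hy hf
    have h8 := (hφ _).1 (((normal_centralizer (H := E)).map φ hs).eq_bot_or_eq_top.resolve_left
      fun e => y1 (mem_bot.1 (e ▸ mem_map_of_mem φ h7)))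
    exact h3 fun a ha => mem_center_iff.2 fun g =>
      (mem_centralizer_iff.1 (h8.ge (mem_top g)) a ha).symm
  simp only [not_forall] at h6
  obtain ⟨a, ha, b, hb, h6⟩ := h6
  have : Nontrivial E := (nontrivial_iff_ne_bot E).2 fun h7 => h3 (h7 ▸ bot_le)
  have : Group.IsSolvable E := Group.isSolvable_of_isSolvable_injective (inclusion_injective h2)
  have h7 := (h5 _ inferInstance (commutator_le_left E E)).resolve_right
    fun h7 => (Group.IsSolvable.commutator_lt_top_of_nontrivial E).not_ge fun x _ => by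
      obtain ⟨y, hy, h8⟩ := (map_subtype_commutator E).ge (h7 x.2)
      exact Subtype.ext h8 ▸ hy
  have h8 := hp _ (h2 (commutator_le_left E E (commutator_mem_commutator ha hb)))
  have h9 := card_le_sq' (ρ := ρ) h5 h7 ha hb hk h8
    fun e => h6 (commutatorElement_eq_one_iff_commute.1 (h.eq_one h8 hk e))
  obtain ⟨l, _, m, σ, ⟨g, hg⟩, h10⟩ := exists_sigma h3 h5 h7
  obtain ⟨ψ, hψ⟩ := exists_ext (algebraMap (ZMod l) (AlgebraicClosure (ZMod l))) m
  have h11 := (S2653.main (by omega) _ φ rfl hφ _ _ (ψ.comp σ) (finrank_fin_fun _)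
    ⟨g, (map_ne_one_iff ψ hψ).2 hg⟩).1
  rw [h10, h.dim] at h9
  have h12 := (Nat.pow_le_pow_right two_pos (show 10 ≤ m by omega)).trans
    ((Nat.pow_le_pow_left (Fact.out : l.Prime).two_le m).trans h9)
  omega

end Cfsg.Agent.ALT6
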