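import Cfsg.Agent.ALT6.Defs
import Cfsg.Agent.H24.PermModule

/-! Passing to a module on which a normal `p`-subgroup acts trivially; minimal covers. -/

set_option autoImplicit false
set_option linter.style.haveILetI false

namespace Cfsg.Agent.ALT6

open Module Subgroup

section
variable {K V : Type*} [Field K] [AddCommGroup V] [Module K V] [FiniteDimensional K V]

theorem eig_sub_quot {f : End K V} {U : Submodule K V} (hU : U ≤ U.comap f) {m : ℕ} (hf : f ^ m = 1)
    (hm : (m : K) ≠ 0) (a : K) : finrank K (f.eigenspace a) =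
      finrank K (End.eigenspace (f.restrict hU) a) + finrank K (End.eigenspace (U.mapQ U f hU) a) := by
  let q : f.eigenspace a →ₗ[K] End.eigenspace (U.mapQ U f hU) a := U.mkQ.restrict fun v hv =>
    End.mem_eigenspace_iff.2 (by rw [Submodule.mkQ_apply, Submodule.mapQ_apply, End.mem_eigenspace_iff.1 hv]; rfl)
  have h1 : LinearMap.range q = ⊤ := LinearMap.range_eq_top.2 fun ⟨w, hw⟩ => by
    by_cases h0 : w = 0
    · exact ⟨0, Subtype.ext (by simp [h0])⟩
    obtain ⟨v, rfl⟩ := U.mkQ_surjective w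
    have h2 : ∀ i, U.mkQ ((f ^ i) v) = a ^ i • U.mkQ v := fun i => by
      rw [← End.HasEigenvector.pow_apply ⟨hw, h0⟩, ← U.mapQ_pow hU]; rfl
    have h3 : a ^ m = 1 := smul_left_injective K h0 (by simpa [hf] using (h2 m).symm)
    have h4 : a ≠ 0 := fun h => by
      rw [h, zero_pow (by rintro rfl; simp at hm)] at h3; exact zero_ne_one h3
    refine ⟨⟨((m : K) * a ^ (m - 1))⁻¹ • ∑ i ∈ Finset.range m, a ^ (m - 1 - i) • (f ^ i) v,
      Submodule.smul_mem _ _ (End.mem_eigenspace_iff.2 ?_)⟩, Subtype.ext ?_⟩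
    · have := LinearMap.congr_fun (Commute.mul_geom_sum₂ (Algebra.commute_algebraMap_right a f) m) v
      rw [← map_pow, h3, hf, map_one, sub_self] at this
      simpa [sub_eq_zero, ← map_pow, Finset.smul_sum, Algebra.algebraMap_eq_smul_one, smul_pow, smul_sub,
        smul_comm a] using this
    · change U.mkQ ((_ : K) • (_ : V)) = U.mkQ v
      rw [map_smul, map_sum, Finset.sum_congr rfl fun i hi => (by
        rw [map_smul, h2, smul_smul, ← pow_add, Nat.sub_add_cancel (Nat.le_sub_one_of_lt (Finset.mem_range.1 hi))] :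
        _ = a ^ (m - 1) • U.mkQ v), Finset.sum_const, Finset.card_range, ← Nat.cast_smul_eq_nsmul K, smul_smul,
        smul_smul, mul_assoc, inv_mul_cancel₀ (mul_ne_zero hm (pow_ne_zero _ h4)), one_smul]
  have h2 : finrank K (End.eigenspace (f.restrict hU) a) = finrank K (LinearMap.ker q) :=
    LinearEquiv.finrank_eq
      { toFun := fun v => ⟨⟨v.1.1, End.mem_eigenspace_iff.2 (congrArg Subtype.val (End.mem_eigenspace_iff.1 v.2))⟩,
          Subtype.ext ((Submodule.Quotient.mk_eq_zero _).2 v.1.2)⟩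
        invFun := fun v => ⟨⟨v.1.1, (Submodule.Quotient.mk_eq_zero _).1 (congrArg Subtype.val v.2)⟩,
          End.mem_eigenspace_iff.2 (Subtype.ext (End.mem_eigenspace_iff.1 v.1.2))⟩
        map_add' := fun _ _ => rfl
        map_smul' := fun _ _ => rfl
        left_inv := fun _ => rfl
        right_inv := fun _ => rfl }
  rw [h2, ← q.finrank_range_add_finrank_ker, h1, finrank_top, add_comm]

theorem eig_prod {W : Type*} [AddCommGroup W] [Module K W] [FiniteDimensional K W] (f : End K V) (g : End K W)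
    (a : K) : finrank K (End.eigenspace (f.prodMap g) a) = finrank K (f.eigenspace a) + finrank K (g.eigenspace a) := by
  rw [← finrank_prod]
  exact LinearEquiv.finrank_eq
    { toFun := fun v => (⟨v.1.1, End.mem_eigenspace_iff.2 (congrArg Prod.fst (End.mem_eigenspace_iff.1 v.2))⟩,
        ⟨v.1.2, End.mem_eigenspace_iff.2 (congrArg Prod.snd (End.mem_eigenspace_iff.1 v.2))⟩)
      invFun := fun v => ⟨(v.1.1, v.2.1), End.mem_eigenspace_iff.2
        (Prod.ext (End.mem_eigenspace_iff.1 v.1.2) (End.mem_eigenspace_iff.1 v.2.2))⟩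
      map_add' := fun _ _ => rfl
      map_smul' := fun _ _ => rfl
      left_inv := fun _ => rfl
      right_inv := fun _ => rfl }

end

theorem semisimp {G : Type*} [Group G] [Finite G] {p : ℕ} [Fact p.Prime] {K : Type} [Field K] [CharP K p]
    {N : Subgroup G} [hN : N.Normal] (hp : IsPGroup p N) (d : ℕ) : ∀ {V : Type} [AddCommGroup V] [Module K V]
      [FiniteDimensional K V] (ρ : G →* End K V), finrank K V = d →
      ∃ (W : Type) (_ : AddCommGroup W) (_ : Module K W) (_ : FiniteDimensional K W) (σ : G →* End K W),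
        finrank K W = d ∧ N ≤ σ.ker ∧ ∀ (g : G) (m : ℕ), g ^ m = 1 → (m : K) ≠ 0 → ∀ a,
          finrank K ((σ g).eigenspace a) = finrank K ((ρ g).eigenspace a) := by
  induction d using Nat.strong_induction_on with | _ d ih => ?_
  intro V _ _ _ ρ hd
  rcases subsingleton_or_nontrivial V with h0 | h0
  · exact ⟨V, _, _, inferInstance, ρ, hd, fun g _ => Subsingleton.elim _ _, fun _ _ _ _ _ => rfl⟩
  let U : Submodule K V :=
    { carrier := {v | ∀ n ∈ N, ρ n v = v}
      add_mem' := fun hv hw n hn => by rw [map_add, hv n hn, hw n hn]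
      zero_mem' := fun _ _ => map_zero _
      smul_mem' := fun c v hv n hn => by rw [map_smul, hv n hn] }
  have hU : ∀ g, U ≤ U.comap (ρ g) := fun g v hv n hn => by
    conv_rhs => rw [← hv _ (hN.conj_mem' n hn g)]
    simp [← End.mul_apply, ← map_mul, ← mul_assoc]
  obtain ⟨v, -, h1, h2⟩ := H24.exists_fixed_vector hp (K := K) (ρ.comp N.subtype) ⊤ (by simp) top_ne_bot
  have h3 := Submodule.one_le_finrank_iff.2 ((Submodule.ne_bot_iff U).2 ⟨v, fun n hn => h2 ⟨n, hn⟩, h1⟩)
  have h4 := U.finrank_quotient_add_finrank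
  obtain ⟨W, _, _, _, σ, h5, h6, h7⟩ := ih _ (by omega) (Representation.quotient ρ U hU) rfl
  refine ⟨U × W, _, _, inferInstance, Representation.prod (Representation.subrepresentation ρ U hU) σ,
    by rw [finrank_prod]; omega, fun n hn => ?_, fun g m hg hm a => ?_⟩
  · exact LinearMap.ext fun w => Prod.ext (Subtype.ext (w.1.2 n hn)) (LinearMap.congr_fun (h6 hn) w.2)
  · rw [eig_sub_quot (hU g) (by rw [← map_pow, hg, map_one]) hm, ← show _ = finrank K (End.eigenspace
      (U.mapQ U (ρ g) (hU g)) a) from h7 g m hg hm a, ← eig_prod]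
    rfl

theorem exists_min {G S : Type} [Group G] [Finite G] [Group S] [IsSimpleGroup S] {φ : G →* S}
    (hφ : Function.Surjective φ) {p : ℕ} [Fact p.Prime] {K V : Type} [Field K] [CharP K p] [AddCommGroup V]
    [Module K V] [FiniteDimensional K V] {ρ : G →* End K V} (h : E6R ρ) :
    ∃ (H : Type) (_ : Group H) (_ : Finite H) (ψ : H →* S) (W : Type) (_ : AddCommGroup W) (_ : Module K W)
      (_ : FiniteDimensional K W) (σ : H →* End K W), (∀ L : Subgroup H, L.map ψ = ⊤ ↔ L = ⊤) ∧ E6R σ ∧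
        (Nat.card ψ.ker : K) ≠ 0 := by
  obtain ⟨L, h1, h2⟩ := exists_minimal_of_wellFoundedLT (fun L : Subgroup G => L.map φ = ⊤)
    ⟨⊤, map_top_of_surjective _ hφ⟩
  let φ₁ := φ.comp L.subtype
  have h3 : ∀ M : Subgroup L, M.map φ₁ = ⊤ ↔ M = ⊤ := fun M => ⟨fun h3 => by
    rw [← map_map] at h3
    exact top_le_iff.1 fun x _ => by
      obtain ⟨y, hy, h4⟩ := h2 h3 (map_subtype_le M) x.2
      exact Subtype.ext h4 ▸ hy, fun h3 => by rw [h3, ← map_map, ← MonoidHom.range_eq_map, range_subtype, h1]⟩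
  haveI := frattini_nilpotent (G := L)
  haveI : Group.IsNilpotent φ₁.ker := Group.nilpotent_of_mulEquiv (subgroupOfEquivOfLe
    (show φ₁.ker ≤ frattini L from le_iInf₂ fun M hM => by
      by_contra h4
      refine hM.1 ((h3 _).1 ?_)
      rw [map_eq_map_iff.2 (show M ⊔ φ₁.ker = ⊤ ⊔ φ₁.ker by
        rw [top_sup_eq, hM.2 _ (left_lt_sup.2 h4)]), (h3 ⊤).2 rfl]))
  obtain ⟨P⟩ : Nonempty (Sylow p φ₁.ker) := inferInstance
  haveI : (P : Subgroup φ₁.ker).Characteristic := P.characteristic_of_normal inferInstance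
  set N := (P : Subgroup φ₁.ker).map φ₁.ker.subtype
  have hp : IsPGroup p N := P.isPGroup'.map _
  have hle : N ≤ φ₁.ker := map_subtype_le _
  obtain ⟨W, _, _, _, σ, h5, h6, h7⟩ := semisimp hp _ (ρ.comp L.subtype) h.dim
  have h8 := h.comp L.subtype_injective
  have hl : ∀ (g : L ⧸ N) (m : ℕ), g ^ m = 1 → (m : K) ≠ 0 → ∃ x : L, x ^ m = 1 ∧ QuotientGroup.mk x = g := by
    intro g m hg hm
    obtain ⟨x, rfl⟩ := QuotientGroup.mk_surjective g
    obtain ⟨k, hk⟩ := hp ⟨x ^ m, (QuotientGroup.eq_one_iff _).1 hg⟩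
    have hc : (p ^ k).Coprime m := Nat.Coprime.pow_left _ ((Nat.Prime.coprime_iff_not_dvd Fact.out).2 fun h =>
      hm ((CharP.cast_eq_zero_iff K p m).2 h))
    obtain ⟨a, -, ha⟩ := Nat.exists_mul_mod_eq_of_coprime 1 hc (by rintro rfl; simp at hm)
    refine ⟨x ^ (p ^ k * a), ?_, ?_⟩
    · rw [pow_right_comm, pow_mul, show (x ^ m) ^ p ^ k = 1 from congrArg Subtype.val hk, one_pow]
    · rw [QuotientGroup.mk_pow, pow_eq_pow_mod _ hg, ha, ← pow_eq_pow_mod _ hg, pow_one]
  refine ⟨L ⧸ N, _, inferInstance, QuotientGroup.lift _ φ₁ hle, W, _, _, inferInstance, QuotientGroup.lift _ σ h6,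
    fun M => ⟨fun h9 => ?_, fun h9 => ?_⟩, ⟨h5, fun g m hg hm h9 => ?_, fun g hg hm h9 => ?_⟩, ?_⟩
  · rw [← map_comap_eq_self_of_surjective (QuotientGroup.mk'_surjective _) M, map_map] at h9
    rw [← map_comap_eq_self_of_surjective (QuotientGroup.mk'_surjective _) M, (h3 _).1 h9,
      map_top_of_surjective _ (QuotientGroup.mk'_surjective _)]
  · rw [h9, map_top_of_surjective _ (QuotientGroup.lift_surjective_of_surjective _ _
      (MonoidHom.range_eq_top.1 (φ₁.range_eq_map.trans ((h3 ⊤).2 rfl))) _)]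
  · obtain ⟨x, hx, rfl⟩ := hl g m hg hm
    rw [h8.fix x m hx hm (h9.trans_eq (h7 x m hx hm 1)), QuotientGroup.mk_one]
  · obtain ⟨x, hx, rfl⟩ := hl g 11 hg (by exact_mod_cast hm)
    have := h7 x 11 hx (by exact_mod_cast hm)
    rw [h8.rat x hx hm fun a b ha hb ha' hb' => (this a).symm.trans ((h9 a b ha hb ha' hb').trans (this b)),
      QuotientGroup.mk_one]
  · rw [Ne, CharP.cast_eq_zero_iff K p, QuotientGroup.ker_lift]
    rw [← relIndex_ker, QuotientGroup.ker_mk', relIndex, subgroupOf,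
      comap_map_eq_self_of_injective (subtype_injective _)]
    exact P.not_dvd_index

end Cfsg.Agent.ALT6
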