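import Cfsg.Agent.ALT6.Pack
import Cfsg.Agent.ALT6.Semi
import Cfsg.Agent.ALT6.NonCen
import Cfsg.Agent.ALT6.Cen12

/-! Alternating sections of groups of type `E₆`. -/

set_option autoImplicit false
set_option linter.style.haveILetI false

namespace Cfsg.Agent.ALT6

open Module Subgroup H67 Cfsg.Lie

theorem cov13 {G : Type*} [Group G] {π : G →* Equiv.Perm (Fin 13)} (hπ : Cov π) {K V : Type*} [Field K]
    [AddCommGroup V] [Module K V] [FiniteDimensional K V] {ρ : G →* End K V} (h : E6R ρ) (h11 : (11 : K) ≠ 0) :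
    False := by
  have hl : Nat.Prime 11 := by norm_num
  haveI := Fact.mk hl
  obtain ⟨a, h1, h2, h3⟩ := hπ.exists_cycle hl (by decide) (by simp)
  have key : ∀ c d : K, c ^ 11 = 1 → d ^ 11 = 1 → c ≠ 1 → d ≠ 1 →
      finrank K ((ρ a).eigenspace c) ≤ finrank K ((ρ a).eigenspace d) := fun c d hc hd hc' hd' => by
    have h4 : IsPrimitiveRoot c 11 := by simpa [orderOf_eq_prime hc hc'] using IsPrimitiveRoot.orderOf c
    obtain ⟨i, h5, rfl⟩ := h4.eq_pow_of_pow_eq_one hd
    have h6 : i.Coprime (orderOf (π a)) := by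
      rw [h1.orderOf, h2]
      exact (Nat.coprime_of_lt_prime (by rintro rfl; simp at hd') h5 hl).symm
    obtain ⟨g, hg⟩ := hπ.exists_conj (y := a ^ i) (by decide) h3 (by rw [pow_right_comm, h3, one_pow])
      (by rw [map_pow]; exact h1.isConj (h1.pow_iff.2 h6) (by rw [Equiv.Perm.support_pow_coprime h6]))
      (by simp [h2])
    rw [(Submodule.equivMapOfInjective _ (rho_inj ρ g⁻¹) _).finrank_eq]
    refine Submodule.finrank_mono (Submodule.map_le_iff_le_comap.2 fun v hv => End.mem_eigenspace_iff.2 ?_)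
    by_cases h0 : v = 0
    · simp [h0]
    rw [rho_conj hg, map_pow, End.HasEigenvector.pow_apply ⟨hv, h0⟩, map_smul]
  exact h1.ne_one (by
    rw [h.rat a h3 h11 fun c d hc hd hc' hd' => (key c d hc hd hc' hd').antisymm (key d c hd hc hd' hc'), map_one])

variable (p : ℕ) [Fact p.Prime] {F G₀ : Type*} [Field F] [Finite F] [CharP F p] [Group G₀] [Finite G₀]
  (j : G₀ →* chevE6.group F) (hj : Function.Injective j)
include hj

theorem exists_cov {n r : ℕ} (hn : 12 ≤ n) (hr : n ≤ r) (φ : G₀ →* alternatingGroup (Fin r))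
    (hφ : Function.Surjective φ) : ∃ (G : Type) (_ : Group G) (π : G →* Equiv.Perm (Fin n)) (V : Type)
      (_ : AddCommGroup V) (_ : Module (AlgebraicClosure (ZMod p)) V)
      (_ : FiniteDimensional (AlgebraicClosure (ZMod p)) V) (ρ : G →* End (AlgebraicClosure (ZMod p)) V),
        Cov π ∧ E6R ρ := by
  obtain ⟨ι, hι⟩ := H13.exists_alt_hom hr
  haveI := alternatingGroup.isSimpleGroup (α := Fin n) (by simp; omega)
  haveI : Group.IsPerfect (alternatingGroup (Fin n)) :=
    ⟨commutator_alternatingGroup_eq_top (by simp; omega)⟩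
  let L := ι.range.comap φ
  obtain ⟨G, _, _, ψ, ρ, h1, h2⟩ := pack p (j.comp L.subtype) (hj.comp L.subtype_injective)
    ((MonoidHom.ofInjective hι).symm.toMonoidHom.comp ((φ.comp L.subtype).codRestrict _ fun g => g.2))
    ((MonoidHom.ofInjective hι).symm.surjective.comp fun ⟨y, hy⟩ => by
      obtain ⟨g, rfl⟩ := hφ y
      exact ⟨⟨g, hy⟩, rfl⟩)
  obtain ⟨H, _, _, ψ, W, _, _, _, σ, h3, h4, h5⟩ := exists_min (p := p) h1 h2
  have h6 := ker_le_center hn ψ h3 h4 h5
  have hs : Function.Surjective ψ := MonoidHom.range_eq_top.1 (ψ.range_eq_map.trans ((h3 ⊤).2 rfl))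
  obtain ⟨M, hM⟩ := Cen.exists_cov (π := (alternatingGroup (Fin n)).subtype.comp ψ) ⟨fun g => (ψ g).2,
    fun σ hσ => (hs ⟨σ, hσ⟩).imp fun _ => congrArg Subtype.val, fun z hz => h6 (Subtype.ext hz)⟩ (by simp; omega)
  exact ⟨M, _, _, W, _, _, inferInstance, _, hM, h4.comp M.subtype_injective⟩

theorem alt_bound {r : ℕ} (φ : G₀ →* alternatingGroup (Fin r)) (hφ : Function.Surjective φ) :
    r ≤ 11 + (if p = 2 ∨ p = 3 ∨ p = 5 then 1 else 0) := by
  by_contra hr
  have key : ∀ n : ℕ, ((n : ℕ) : AlgebraicClosure (ZMod p)) = 0 → p ∣ n := fun n => (CharP.cast_eq_zero_iff _ p n).1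
  split_ifs at hr with h
  · obtain ⟨G, _, π, V, _, _, _, ρ, h1, h2⟩ := exists_cov p j hj (n := 13) (by norm_num) (by omega) φ hφ
    exact cov13 h1 h2 fun h3 => by
      have := key 11 (by exact_mod_cast h3)
      rcases h with rfl | rfl | rfl <;> omega
  · obtain ⟨G, _, π, V, _, _, _, ρ, h1, h2⟩ := exists_cov p j hj (n := 12) le_rfl (by omega) φ hφ
    refine cov12 h1 h2 fun h3 => h ?_
    have h4 : p ∣ 2 * (3 * 5) := key 30 (by exact_mod_cast h3)
    have hp : p.Prime := Fact.out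
    simpa only [hp.dvd_mul, Nat.prime_dvd_prime_iff_eq hp Nat.prime_two, Nat.prime_dvd_prime_iff_eq hp Nat.prime_three,
      Nat.prime_dvd_prime_iff_eq hp Nat.prime_five] using h4

end Cfsg.Agent.ALT6
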