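import Cfsg.Agent.ALT6.Comb
import Cfsg.Agent.H13.ChevFus
import Cfsg.Agent.H37.Emb2
import Cfsg.Agent.H81.Central

/-! A finite subgroup of `E₆` is covered by a finite group acting on the 27-dimensional module. -/

set_option autoImplicit false
set_option linter.style.haveILetI false

namespace Cfsg.Agent.ALT6

open Module Cfsg.Lie H37 H38 H39 H39.E6 H40

theorem finrank_eig_diag {K V ι : Type*} [Field K] [AddCommGroup V] [Module K V] [Fintype ι] (b : Basis ι K V)
    {f : End K V} {d : ι → K} (h : ∀ l, f (b l) = d l • b l) (a : K) :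
    finrank K (f.eigenspace a) = Nat.card {l // d l = a} := by
  classical
  have h1 : f.eigenspace a = Submodule.span K (Set.range fun l : {l // d l = a} => b l) := by
    refine le_antisymm (fun v hv => ?_) (Submodule.span_le.2 ?_)
    · have h2 : ∀ l, d l * b.repr v l = a * b.repr v l := fun l => by
        have := congrArg (b.repr · l) (End.mem_eigenspace_iff.1 hv)
        simp only [map_smul, Finsupp.smul_apply, smul_eq_mul] at this
        rw [← this]
        conv_rhs => rw [← b.sum_repr v, map_sum, map_sum, Finsupp.finsetSum_apply]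
        simp [h, Finsupp.single_apply, mul_comm]
      rw [← b.sum_repr v]
      refine Submodule.sum_mem _ fun l _ => ?_
      by_cases h3 : d l = a
      · exact Submodule.smul_mem _ _ (Submodule.subset_span ⟨⟨l, h3⟩, rfl⟩)
      · rw [(mul_eq_mul_right_iff.1 (h2 l)).resolve_left h3, zero_smul]; exact zero_mem _
    · rintro _ ⟨l, rfl⟩
      exact End.mem_eigenspace_iff.2 (by rw [h, l.2])
  rw [h1, Nat.card_eq_fintype_card]
  exact finrank_span_eq_card (b.linearIndependent.comp _ Subtype.val_injective)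

theorem dv_mul {K : Type*} [Field K] (c c' : Fin 6 → Kˣ) (l : I27) : dv (c * c') l = dv c l * dv c' l := by
  simp [dv, mul_zpow, Finset.prod_mul_distrib]

theorem dv_one {K : Type*} [Field K] (l : I27) : dv (1 : Fin 6 → Kˣ) l = 1 := by simp [dv]

theorem dv_inv {K : Type*} [Field K] (c : Fin 6 → Kˣ) (l : I27) : dv c⁻¹ l * dv c l = 1 := by
  rw [← dv_mul, inv_mul_cancel, dv_one]

theorem dv_single {K : Type*} [Field K] (i : Fin 6) (c : Kˣ) (l : I27) :
    dv (Pi.mulSingle i c) l = (c : K) ^ ex i l := by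
  rw [dv, Finset.prod_eq_single i (fun j _ hj => by simp [hj]) (by simp)]
  simp

theorem exists_rg6 {k Γ : Type*} [Field k] [Group Γ] (A : Cov isChev_E6 k Γ) :
    ∃ X : RG (rs chevE6) k (GL I k × Γ), (∀ r t, MonoidHom.snd _ _ (X.x r t) = A.X.x r t) ∧
      ∀ t ∈ X.H, ∃ c : Fin 6 → kˣ, (∀ l, ap t.1 (bv k l) = dv c l • bv k l) ∧ t.2 = A.T c := by
  have : Nonempty (Fin chevE6.rank) := ⟨⟨0, by decide⟩⟩
  have h1 : ∀ i : Fin 6, ∃ j : Fin 6, chevE6.cartan i (chevE6.simple j) = -1 := by decide +kernel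
  have hL := certOKE6.chkL_spec chkL_E6
  obtain ⟨X, h2, h3⟩ := Diag.exists_rg (P := rs chevE6) hL h1 A.faithful (θ := MonoidHom.snd _ _)
    (Diag.prod (diag k) (diagRG hL A.faithful)) (fun _ _ => rfl) fun _ _ => rfl
  refine ⟨X, h2, fun t ht => ?_⟩
  rw [RG.H_eq] at ht
  induction ht using Subgroup.closure_induction with
  | one => exact ⟨1, fun l => by simp [dv_one, ap_one], (map_one A.T).symm⟩
  | mul a b _ _ ha hb =>
    obtain ⟨c, h4, h5⟩ := ha
    obtain ⟨c', h6, h7⟩ := hb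
    exact ⟨c * c', fun l => by rw [Prod.fst_mul, ap_mul, h6, ap_smul, h4, smul_smul, dv_mul, mul_comm],
      by rw [Prod.snd_mul, h5, h7]; exact (map_mul A.T _ _).symm⟩
  | inv a _ ha =>
    obtain ⟨c, h4, h5⟩ := ha
    refine ⟨c⁻¹, fun l => ?_, by rw [Prod.snd_inv, h5]; exact (map_inv A.T _).symm⟩
    conv_lhs => rw [← one_smul k (bv k l), ← dv_inv c l, mul_smul, ← h4, ap_smul, Prod.fst_inv, ap_inv_ap]
  | mem a ha =>
    obtain ⟨i, c, hc, rfl⟩ := ha
    refine ⟨Pi.mulSingle i (Units.mk0 c hc), fun l => ?_, ?_⟩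
    · have : (X.h ((rs chevE6).sp i) c).1 = nn i c * nn i (-1) := by
        simp only [RG0.h, RG0.n, (h3 i).1, (h3 i).2]; rfl
      rw [this, ap_hh i hc]
      exact congrArg (· • _) (dv_single i (Units.mk0 c hc) l).symm
    · exact (smap_h (X := X) (f := RingHom.id k) (θ := MonoidHom.snd _ _) h2 _ _).trans (A.T_single i (Units.mk0 c hc)).symm

theorem pack (p : ℕ) [Fact p.Prime] {F G₀ S : Type*} [Field F] [Finite F] [CharP F p] [Group G₀] [Finite G₀]
    [Group S] [Group.IsPerfect S] (j : G₀ →* chevE6.group F) (hj : Function.Injective j) (φ : G₀ →* S)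
    (hφ : Function.Surjective φ) : ∃ (G : Type) (_ : Group G) (_ : Finite G) (ψ : G →* S)
      (ρ : G →* End (AlgebraicClosure (ZMod p)) (I → AlgebraicClosure (ZMod p))),
        Function.Surjective ψ ∧ E6R ρ := by
  let k := AlgebraicClosure (ZMod p)
  letI : Algebra (ZMod p) F := ZMod.algebra F p
  let f := (IsAlgClosed.lift (R := ZMod p) (S := F) (M := k)).toRingHom
  let A := scCov isChev_E6 k
  obtain ⟨X, h1, h2⟩ := exists_rg6 A
  let j' : G₀ →* GL chevE6.Idx k := (chevE6.group k).subtype.comp ((groupMap chevE6 f).comp j)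
  have hj' : Function.Injective j' := Subtype.val_injective.comp ((H13.groupMap_injective f).comp hj)
  let Θ : GL I k × _ →* GL chevE6.Idx k := A.θ.comp (MonoidHom.snd _ _)
  have hΘ : ∀ r t, Θ (X.x r t) = (mg isChev_E6 k).x r t := fun r t => (congrArg A.θ (h1 r t)).trans (A.θ_X r t)
  have hs : ∀ y, ∃ g ∈ X.grp, g.2 = y := fun y => (map_US _ _ _ h1 Set.univ).ge (A.mem_grp y)
  let L := X.grp ⊓ j'.range.comap Θ
  let ψ₀ : L →* G₀ := (MonoidHom.ofInjective hj').symm.toMonoidHom.comp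
    ((Θ.comp L.subtype).codRestrict _ fun g => g.2.2)
  have h3 : ∀ g : L, j' (ψ₀ g) = Θ g := fun g => MonoidHom.apply_ofInjective_symm hj' ⟨_, g.2.2⟩
  have h4 : Function.Surjective ψ₀ := fun x => by
    obtain ⟨y, hy⟩ := A.exists_θ_eq ((groupMap chevE6 f).comp j x).2
    obtain ⟨g, hg, rfl⟩ := hs y
    exact ⟨⟨g, hg, x, hy.symm⟩, hj' ((h3 _).trans hy)⟩
  have h5 : ψ₀.ker ≤ Subgroup.center L := fun z hz => Subgroup.mem_center_iff.2 fun g => Subtype.ext (by
    have h6 : Θ z = 1 := by rw [← h3, show ψ₀ z = 1 from hz, map_one]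
    exact (show X.grp ≤ Subgroup.centralizer {(z : GL I k × _)} from X.US_le.2 fun r _ t =>
      Subgroup.mem_centralizer_singleton_iff.2
        (comm_of_map_eq_one X _ Θ hΘ (mg_faithful _ k) z.2.1 h6 r t).symm) g.2.1 _ rfl |>.symm)
  haveI := H81.finite_commutator_of_central h5
  let ι : commutator L →* GL I k × _ := L.subtype.comp (commutator L).subtype
  have hι : Function.Injective ι := Subtype.val_injective.comp Subtype.val_injective
  let ρ₀ : GL I k →* End k (I → k) := (Matrix.toLinAlgEquiv' (R := k)).toRingEquiv.toMonoidHom.comp (Units.coeHom _)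
  have hρ : ∀ g v, ρ₀ g v = ap g v := fun g v => rfl
  have key : ∀ (g : commutator L) (m : ℕ), g ^ m = 1 → (m : k) ≠ 0 → ∃ c : Fin 6 → kˣ,
      (∀ a, finrank k ((ρ₀ (ι g).1).eigenspace a) = Nat.card {l // dv c l = a}) ∧ (∀ l, dv c l ^ m = 1) ∧
        (c = 1 → g = 1) := fun g m hg hm => by
    have hm' : m.Coprime p := ((Nat.Prime.coprime_iff_not_dvd Fact.out).2 fun h =>
      hm ((CharP.cast_eq_zero_iff k p m).2 h)).symm
    have hg' : ι g ^ m = 1 := by rw [← map_pow, hg, map_one]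
    obtain ⟨y, hy⟩ := Cov.conj_H (sc_all isChev_E6) (scCov_hasField isChev_E6 k) p (algClosure_alg (ZMod p) p) hm'
      (s := (ι g).2) (congrArg Prod.snd hg')
    obtain ⟨u, hu, rfl⟩ := hs y
    obtain ⟨t, ht, e⟩ : u.2⁻¹ * (ι g).2 * u.2 ∈ X.H.map (MonoidHom.snd _ _) := by
      rw [RG.H_eq] at hy
      refine (Subgroup.closure_le _).2 ?_ hy
      rintro _ ⟨i, c, hc, rfl⟩
      exact ⟨_, X.h_mem_H _ hc, smap_h (f := RingHom.id k) h1 _ _⟩
    have h6 : u⁻¹ * ι g * u ∈ X.H := (mul_mem_cancel_left (inv_mem ht)).1 (mem_H_of_map_eq_one X _ _ h1 A.faithful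
      (mul_mem (inv_mem (X.H_le_grp ht)) (mul_mem (mul_mem (inv_mem hu) g.1.2.1) hu)) (by
        rw [map_mul, map_inv, e]; exact inv_mul_cancel _))
    obtain ⟨c, h7, h8⟩ := h2 _ h6
    let b := (Pi.basisFun k I).map (LinearMap.GeneralLinearGroup.generalLinearEquiv k _ ((Group.isUnit u.1).map ρ₀).unit)
    have hb : ∀ l, b l = ap u.1 (bv k l) := fun l => by simp [b, H38.bv, ← hρ]
    have h9 : ∀ l, ρ₀ (ι g).1 (b l) = dv c l • b l := fun l => by
      rw [hb, ← ap_smul, ← h7, ← ap_mul, hρ, ← ap_mul]; simp [mul_assoc]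
    refine ⟨c, finrank_eig_diag b h9, fun l => smul_left_injective k (b.ne_zero l) ?_, fun hc => hι ?_⟩
    · have := End.HasEigenvector.pow_apply ⟨End.mem_eigenspace_iff.2 (h9 l), b.ne_zero l⟩ m
      rw [← map_pow, show (ι g).1 ^ m = 1 from congrArg Prod.fst hg', map_one] at this
      simpa using this.symm
    · have : u⁻¹ * ι g * u = 1 := Prod.ext (ext_bv fun l => by rw [h7, hc, dv_one, one_smul]; exact (ap_one _).symm)
        (by rw [h8, hc]; exact map_one A.T)
      rw [map_one, ← mul_inv_cancel_left u (ι g), ← mul_inv_cancel_right (u⁻¹ * ι g) u, this]; simp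
  refine ⟨commutator L, inferInstance, inferInstance, (φ.comp ψ₀).comp (commutator L).subtype,
    ρ₀.comp ((MonoidHom.fst _ _).comp ι), fun s => ?_, by simp, fun g m hg hm h => ?_, fun g hg hm h => ?_⟩
  · obtain ⟨g, hg, e⟩ : s ∈ (commutator L).map (φ.comp ψ₀) := by
      rw [map_commutator_eq, (φ.comp ψ₀).range_eq_top_of_surjective (hφ.comp h4 :)]
      exact Group.IsPerfect.mem_commutator
    exact ⟨⟨g, hg⟩, e⟩
  · obtain ⟨c, h6, -, h8⟩ := key g m hg hm
    exact h8 (comb_fix c (h.trans_eq (h6 1)))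
  · obtain ⟨c, h6, h7, h8⟩ := key g 11 hg (by exact_mod_cast hm)
    exact h8 (comb_rat c h7 fun a b ha hb ha' hb' => (h6 a).symm.trans ((h a b ha hb ha' hb').trans (h6 b)))

end Cfsg.Agent.ALT6
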